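import Cfsg.Agent.Lib.TorD4.Cent
import Cfsg.Agent.Lib.Chev.SL2Chev

/-!
The homomorphism from `SL₂` attached to a positive root: conjugation by the torus, and the elements
of `SL₂` whose image is diagonal.
-/

set_option autoImplicit false
set_option linter.unusedSectionVars false
set_option linter.unusedVariables false
set_option linter.ambiguousOpen false

namespace Cfsg.Agent.Lib.TorD4.Root

open scoped MatrixGroups Matrix
open Cfsg Lie ChevalleyDatum
open Cfsg.Agent.Lib.Chev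
open Tables Tables2 Tables3 Raise Basic AxBasic Torus Products Products2 Mono1 Mono2 Mono3 Bn Order1 SL2 SL2Chev
open Cfsg.Agent.Lib.Twisted.Bruhat

variable {D : ChevalleyDatum} {F : Type*} [Field F]

variable (h : Tab D) (h2 : Tab2 D) (ax : Ax D F) {r : ℕ} (hr : r < D.nroots)

/-- The homomorphism. -/
noncomputable def fH : SL(2, F) →* GL D.Idx F := phiHom (xG ax r) (xG ax (D.neg r)) (rankOneRel h h2 ax hr)

lemma fH_apply (A : SL(2, F)) : fH h h2 ax hr A = phiF (xG ax r) (xG ax (D.neg r)) A := rfl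

lemma WW_eq (t : F) : WW (xG ax r) (xG ax (D.neg r)) t = nG ax r t := rfl

lemma HH_eq (t : F) : HH (xG ax r) (xG ax (D.neg r)) t = hG ax r t := rfl

/-- Conjugation by a diagonal matrix on `SL₂`. -/
def dconj (u : Fˣ) (A : SL(2, F)) : SL(2, F) :=
  ⟨!![A.1 0 0, (u : F) * A.1 0 1; (u : F)⁻¹ * A.1 1 0, A.1 1 1], by
    have := det_eq A
    rw [Matrix.det_fin_two]
    simp only [Matrix.of_apply, Matrix.cons_val', Matrix.cons_val_zero, Matrix.cons_val_one]
    have hu := u.ne_zero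
    field_simp
    linear_combination this⟩

@[simp] lemma dconj_00 (u : Fˣ) (A : SL(2, F)) : (dconj u A).1 0 0 = A.1 0 0 := rfl
@[simp] lemma dconj_01 (u : Fˣ) (A : SL(2, F)) : (dconj u A).1 0 1 = (u : F) * A.1 0 1 := rfl
@[simp] lemma dconj_10 (u : Fˣ) (A : SL(2, F)) : (dconj u A).1 1 0 = (u : F)⁻¹ * A.1 1 0 := rfl
@[simp] lemma dconj_11 (u : Fˣ) (A : SL(2, F)) : (dconj u A).1 1 1 = A.1 1 1 := rfl

include h hr in
lemma tor_conj_neg (y : ℕ → Fˣ) (t : F) :
    tor D y * xG ax (D.neg r) t * (tor D y)⁻¹ = xG ax (D.neg r) ((chi D y r : F)⁻¹ * t) := by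
  rw [tor_conj_xG ax h y (h.neg_lt r hr), chi_neg h y hr, Units.val_inv_eq_inv_val]

include h hr in
lemma tor_conj_nG (y : ℕ → Fˣ) {t : F} (ht : t ≠ 0) :
    tor D y * nG ax r t * (tor D y)⁻¹ = nG ax r ((chi D y r : F) * t) := by
  have hu := (chi D y r).ne_zero
  have e : tor D y * nG ax r t * (tor D y)⁻¹ =
      (tor D y * xG ax r t * (tor D y)⁻¹) * (tor D y * xG ax (D.neg r) (-t⁻¹) * (tor D y)⁻¹) *
        (tor D y * xG ax r t * (tor D y)⁻¹) := by
    simp only [nG]
    group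
  rw [e, tor_conj_xG ax h y hr, tor_conj_neg h ax hr]
  simp only [nG]
  congr 2
  field_simp

/-- Conjugation of the image of `SL₂` by the torus. -/
theorem tor_conj_fH (y : ℕ → Fˣ) (A : SL(2, F)) :
    tor D y * fH h h2 ax hr A * (tor D y)⁻¹ = fH h h2 ax hr (dconj (chi D y r) A) := by
  have R := rankOneRel h h2 ax hr
  have hu := (chi D y r).ne_zero
  rw [fH_apply, fH_apply]
  by_cases hc : A.1 1 0 = 0
  · have ha := ne_zero_of_c hc
    rw [phiF_of_c0 hc, phiF_of_c0 (by simp [hc])]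
    have e1 : tor D y * hG ax r (A.1 0 0) * (tor D y)⁻¹ = hG ax r (A.1 0 0) := by
      have e : tor D y * hG ax r (A.1 0 0) * (tor D y)⁻¹ =
          (tor D y * nG ax r (A.1 0 0) * (tor D y)⁻¹) * (tor D y * nG ax r (-1) * (tor D y)⁻¹) := by
        simp only [hG]
        group
      rw [e, tor_conj_nG h ax hr y ha, tor_conj_nG h ax hr y (neg_ne_zero.mpr one_ne_zero)]
      have := R.W_mul_W (mul_ne_zero hu ha) (mul_ne_zero hu (neg_ne_zero.mpr one_ne_zero))
      simp only [WW_eq, HH_eq] at this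
      rw [this]
      congr 1
      field_simp
    have e2 : tor D y * (hG ax r (A.1 0 0) * xG ax r (A.1 0 1 / A.1 0 0)) * (tor D y)⁻¹ =
        (tor D y * hG ax r (A.1 0 0) * (tor D y)⁻¹) * (tor D y * xG ax r (A.1 0 1 / A.1 0 0) * (tor D y)⁻¹) := by
      group
    rw [HH_eq, e2, e1, tor_conj_xG ax h y hr]
    simp only [dconj_00, dconj_01, HH_eq]
    congr 2
    ring
  · have hc' : (dconj (chi D y r) A).1 1 0 ≠ 0 := by
      simp only [dconj_10]
      exact mul_ne_zero (inv_ne_zero hu) hc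
    rw [phiF_of_cne hc, phiF_of_cne hc']
    simp only [dconj_00, dconj_10, dconj_11, WW_eq]
    have e : tor D y * (xG ax r (A.1 0 0 / A.1 1 0) * nG ax r (-1 / A.1 1 0) * xG ax r (A.1 1 1 / A.1 1 0)) * (tor D y)⁻¹ =
        (tor D y * xG ax r (A.1 0 0 / A.1 1 0) * (tor D y)⁻¹) * (tor D y * nG ax r (-1 / A.1 1 0) * (tor D y)⁻¹) *
          (tor D y * xG ax r (A.1 1 1 / A.1 1 0) * (tor D y)⁻¹) := by group
    rw [e, tor_conj_xG ax h y hr, tor_conj_xG ax h y hr, tor_conj_nG h ax hr y (div_ne_zero (by simp) hc)]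
    congr 1
    · congr 2
      · field_simp
      · field_simp
    · congr 1
      field_simp

variable {h h2 ax hr}

/-- If the image is diagonal, so is the matrix. -/
theorem offdiag_of_mem (hp : D.IsPosRoot r) {A : SL(2, F)} (hA : fH h h2 ax hr A ∈ D.diagonalSubgroup F) :
    A.1 1 0 = 0 ∧ A.1 0 1 = 0 := by
  rw [fH_apply] at hA
  have hB : ∀ t, xG ax r t ∈ D.borelSubgroup F := fun t => xG_mem_borel h h2 ax hp t
  have hC : ∀ t, xG ax r t ∈ D.posUnipotent F := fun t => by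
    rw [posUnipotent_eq ax]
    exact xG_mem_rootClosure ax hp t
  have hHB : D.diagonalSubgroup F ≤ D.borelSubgroup F := le_sup_right
  have hc : A.1 1 0 = 0 := by
    by_contra hc
    rw [phiF_of_cne hc, WW_eq] at hA
    set s := -1 / A.1 1 0 with hs
    have hs0 : s ≠ 0 := div_ne_zero (by simp) hc
    set p := xG ax r (A.1 0 0 / A.1 1 0) with hp'
    set q' := xG ax r (A.1 1 1 / A.1 1 0) with hq'
    have e : nG ax r s = p⁻¹ * (p * nG ax r s * q') * q'⁻¹ := by group
    have hB1 : nG ax r s ∈ D.borelSubgroup F := by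
      rw [e]
      exact Subgroup.mul_mem _ (Subgroup.mul_mem _ (Subgroup.inv_mem _ (hB _)) (hHB hA)) (Subgroup.inv_mem _ (hB _))
    have hN : nG ax r s ∈ D.monomialSubgroup F := by
      rw [monomial_eq_monoS h h2 ax]
      exact nG_mem_monoS h h2 ax hr hs0
    have hH : nG ax r s ∈ D.diagonalSubgroup F := by
      rw [← borel_inf_monomial h h2 ax]
      exact ⟨hB1, hN⟩
    obtain ⟨y, hy⟩ := exists_tor_of_mem ax h hH
    have e1 := (rel_all h h2 ax hr).1 s (1 : F) hs0
    rw [hy] at e1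
    rw [tor_conj_xG ax h y hr] at e1
    have := xG_eq_iff ax h h2 hr (h.neg_lt r hr) (by simp) e1
    exact h.neg_ne r hr this.1.symm
  refine ⟨hc, ?_⟩
  have ha := ne_zero_of_c hc
  rw [phiF_of_c0 hc, HH_eq] at hA
  have hh : hG ax r (A.1 0 0) ∈ D.diagonalSubgroup F := hG_mem_diagonal ax hr ha
  have hx : xG ax r (A.1 0 1 / A.1 0 0) ∈ D.diagonalSubgroup F := by
    have := Subgroup.mul_mem _ (Subgroup.inv_mem _ hh) hA
    simpa using this
  have h4 : xG ax r (A.1 0 1 / A.1 0 0) ∈ D.posUnipotent F ⊓ D.diagonalSubgroup F := ⟨hC _, hx⟩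
  rw [U_inf_H ax h, Subgroup.mem_bot] at h4
  by_contra hb
  have hne : A.1 0 1 / A.1 0 0 ≠ 0 := div_ne_zero hb ha
  have e5 : xG ax r (A.1 0 1 / A.1 0 0) = xG ax r 0 := by rw [h4, xG_zero]
  exact hne (xG_eq_iff ax h h2 hr hr hne e5).2

/-- The image of a diagonal matrix. -/
lemma fH_of_offdiag {A : SL(2, F)} (hc : A.1 1 0 = 0) (hb : A.1 0 1 = 0) :
    fH h h2 ax hr A = hG ax r (A.1 0 0) := by
  rw [fH_apply, phiF_of_c0 hc, hb, zero_div, xG_zero, mul_one]
  rfl

/-- The image of a diagonal matrix is `tor`. -/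
lemma fH_of_offdiag' {A : SL(2, F)} (hc : A.1 1 0 = 0) (hb : A.1 0 1 = 0) :
    fH h h2 ax hr A = tor D (hW D r (Units.mk0 (A.1 0 0) (ne_zero_of_c hc))) := by
  rw [fH_of_offdiag hc hb, ← hG_eq_tor ax h hr]
  rfl

end Cfsg.Agent.Lib.TorD4.Root
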