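import Cfsg.Agent.Lib.TorD4.Root
import Cfsg.Agent.Lib.Twisted.Tw

/-!
Change of the base field for the Chevalley groups.
-/

set_option autoImplicit false
set_option linter.unusedSectionVars false
set_option linter.unusedVariables false
set_option linter.ambiguousOpen false

namespace Cfsg.Agent.Lib.TorD4.Base

open scoped MatrixGroups Matrix
open Cfsg Lie ChevalleyDatum
open Cfsg.Agent.Lib.Chev
open Tables Tables2 Tables3 Raise Basic AxBasic Torus Products Products2 Mono1 Mono2 Mono3 Bn Order1 SL2 SL2Chev
open Cfsg.Agent.Lib.Twisted.Bruhat Cfsg.Agent.Lib.Twisted.Tw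
open Cfsg.Agent.Lib.TorD4.Cent Cfsg.Agent.Lib.TorD4.Root

variable {D : ChevalleyDatum} {F F' : Type*} [Field F] [Field F'] (ι : F →+* F')

theorem xMat_map' (r : Fin D.nroots) (t : F) :
    (D.xMat F r t).map ι = D.xMat F' r (ι t) := by
  ext row col
  simp only [ChevalleyDatum.xMat, Matrix.map_apply, Matrix.of_apply]
  rcases col with i | s
  · rcases row with i' | u
    · simp only; split_ifs <;> simp
    · simp only; split_ifs <;> simp
  · rcases row with i | u
    · simp only; split_ifs <;> simp
    · simp only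
      split_ifs <;> simp [map_add, map_list_sum, List.map_map, Function.comp_def]

/-- The morphism on `GL`. -/
noncomputable def mu (D : ChevalleyDatum) : GL D.Idx F →* GL D.Idx F' := Matrix.GeneralLinearGroup.map ι

lemma mu_val (g : GL D.Idx F) : ((mu ι D g : GL D.Idx F') : Matrix D.Idx D.Idx F') = (g : Matrix D.Idx D.Idx F).map ι := rfl

lemma mu_injective : Function.Injective (mu (F := F) (F' := F') ι D) := by
  intro a b e
  apply Units.ext
  ext i j
  apply ι.injective
  have e' : (mu ι D a).1 = (mu ι D b).1 := congrArg (fun x : GL D.Idx F' => (x : Matrix D.Idx D.Idx F')) e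
  exact congrFun (congrFun e' i) j

variable (ax : Ax D F) (ax' : Ax D F')

lemma mu_x (r : ℕ) (t : F) : mu ι D (xG ax r t) = xG ax' r (ι t) := by
  apply Units.ext
  rw [mu_val, xG_val, xG_val]
  by_cases hr : r < D.nroots
  · simp only [ChevalleyDatum.x, hr, dif_pos]
    exact xMat_map' ι _ t
  · simp only [ChevalleyDatum.x, hr, dif_neg, not_false_eq_true]
    ext i j
    by_cases hij : i = j
    · subst hij
      simp
    · simp [Matrix.one_apply, hij]

lemma mu_n (r : ℕ) (t : F) : mu ι D (nG ax r t) = nG ax' r (ι t) := by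
  simp only [nG, map_mul, mu_x ι ax ax', map_neg, map_inv₀]

lemma mu_h (r : ℕ) (t : F) : mu ι D (hG ax r t) = hG ax' r (ι t) := by
  simp only [hG, map_mul, mu_n ι ax ax', map_neg, map_one]

lemma mu_sG (i : ℕ) : mu ι D (sG ax i) = sG ax' i := by
  simp only [sG, mu_n ι ax ax', map_one]

lemma mu_nw (l : List ℕ) : mu ι D (nw D ax l) = nw D ax' l := by
  induction l with
  | nil => simp [nw]
  | cons i l ih => rw [nw_cons, nw_cons, map_mul, ih, mu_sG ι ax ax']

lemma mu_wordL (L : List ℕ) (t : ℕ → F) : mu ι D (wordL ax L t) = wordL ax' L (fun r => ι (t r)) := by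
  induction L with
  | nil => simp [wordL_nil]
  | cons a L ih => rw [wordL_cons, wordL_cons, map_mul, ih, mu_x ι ax ax']

include ax ax' in
lemma mu_H (h : Tab D) {a : GL D.Idx F} (ha : a ∈ D.diagonalSubgroup F) : mu ι D a ∈ D.diagonalSubgroup F' := by
  rw [diagonalSubgroup] at ha
  induction ha using Subgroup.closure_induction with
  | mem x hx =>
    obtain ⟨r, t, hr, ht, hx⟩ := hx
    have e : x = hG ax r t := Units.ext (by rw [hx, hG_val])
    rw [e, mu_h ι ax ax']
    exact hG_mem_diagonal ax' hr ((map_ne_zero ι).mpr ht)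
  | one => rw [map_one]; exact Subgroup.one_mem _
  | mul a b _ _ ha hb => rw [map_mul]; exact Subgroup.mul_mem _ ha hb
  | inv a _ ha => rw [map_inv]; exact Subgroup.inv_mem _ ha

lemma mu_rootClosure {P : ℕ → Prop} {u : GL D.Idx F} (hu : u ∈ rootClosure ax P) :
    mu ι D u ∈ rootClosure ax' P := by
  refine rootClosure_induction ax (Q := fun u => mu ι D u ∈ rootClosure ax' P) ?_ ?_ ?_ hu
  · rw [map_one]; exact Subgroup.one_mem _
  · intro r t hr
    rw [mu_x ι ax ax']
    exact xG_mem_rootClosure ax' hr _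
  · intro a b ha hb
    rw [map_mul]
    exact Subgroup.mul_mem _ ha hb

include ax ax' in
lemma mu_U {u : GL D.Idx F} (hu : u ∈ D.posUnipotent F) : mu ι D u ∈ D.posUnipotent F' := by
  rw [posUnipotent_eq ax] at hu
  rw [posUnipotent_eq ax']
  exact mu_rootClosure ι ax ax' hu

include ax ax' in
lemma mu_B (h : Tab D) {b : GL D.Idx F} (hb : b ∈ D.borelSubgroup F) : mu ι D b ∈ D.borelSubgroup F' := by
  obtain ⟨u, hu, a, ha, rfl⟩ := (mem_borel_iff ax h).mp hb
  rw [map_mul]
  exact (mem_borel_iff ax' h).mpr ⟨_, mu_U ι ax ax' hu, _, mu_H ι ax ax' h ha, rfl⟩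

include ax ax' in
lemma mu_group (h : Tab D) {g : GL D.Idx F} (hg : g ∈ D.group F) : mu ι D g ∈ D.group F' := by
  rw [group_eq_rootClosure h ax] at hg
  rw [group_eq_rootClosure h ax']
  exact mu_rootClosure ι ax ax' hg

/-- The values of the torus elements. -/
lemma chi_map (y : ℕ → Fˣ) (s : ℕ) :
    chi D (fun j => Units.map (ι : F →* F') (y j)) s = Units.map (ι : F →* F') (chi D y s) := by
  simp only [chi, map_prod, map_zpow]

lemma mu_tor (y : ℕ → Fˣ) : mu ι D (tor D y) = tor D (fun j => Units.map (ι : F →* F') (y j)) := by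
  apply Units.ext
  rw [mu_val]
  show (Matrix.diagonal fun i => ((torD D y i : Fˣ) : F)).map ι = Matrix.diagonal fun i => ((torD D _ i : F'ˣ) : F')
  rw [Matrix.diagonal_map (map_zero ι)]
  congr 1
  funext i
  cases i with
  | inl i => simp [torD]
  | inr s =>
    simp only [torD, Sum.elim_inr, Function.comp]
    rw [chi_map]
    rfl

variable (h : Tab D) (h2 : Tab2 D) {r : ℕ} (hr : r < D.nroots)

/-- The morphism from `SL₂` under a change of the base field. -/
lemma mu_fH (M : SL(2, F)) :
    mu ι D (fH h h2 ax hr M) = fH h h2 ax' hr (Matrix.SpecialLinearGroup.map ι M) := by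
  rw [fH_apply, fH_apply]
  by_cases hc : M.1 1 0 = 0
  · rw [phiF_of_c0 hc, phiF_of_c0 (g := Matrix.SpecialLinearGroup.map ι M) (by
      simp [hc]), HH_eq, HH_eq, map_mul, mu_h ι ax ax', mu_x ι ax ax']
    simp [map_div₀]
  · have hc' : (Matrix.SpecialLinearGroup.map ι M).1 1 0 ≠ 0 := by
      simpa using (map_ne_zero ι).mpr hc
    rw [phiF_of_cne hc, phiF_of_cne hc', WW_eq, WW_eq, map_mul, map_mul, mu_x ι ax ax', mu_x ι ax ax', mu_n ι ax ax']
    simp [map_div₀]

include h h2 in
/-- An element of `U` whose image is a root element is a root element. -/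
theorem eq_x_of_mu (hp : D.IsPosRoot r) {u : GL D.Idx F} (hu : u ∈ D.posUnipotent F) {β : F'}
    (he : mu ι D u = xG ax' r β) : ∃ c : F, u = xG ax r c := by
  classical
  rw [← rootClosure_posRoots ax] at hu
  have hG := goodList_posRoots h (D := D)
  obtain ⟨t, rfl⟩ := exists_wordL ax h hG hu
  rw [mu_wordL ι ax ax'] at he
  have hnd : D.posRoots.Nodup := hG.sorted.imp (fun hab => Nat.ne_of_lt hab)
  -- the element as an ordered product
  have hsingle : ∀ L : List ℕ, L.Nodup → r ∈ L → wordL ax' L (fun s => if s = r then β else 0) = xG ax' r β := by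
    have hzero : ∀ L : List ℕ, r ∉ L → wordL ax' L (fun s => if s = r then β else 0) = 1 := by
      intro L
      induction L with
      | nil => simp [wordL_nil]
      | cons a L ih =>
        intro hn
        rw [List.mem_cons, not_or] at hn
        rw [wordL_cons, ih hn.2, if_neg (Ne.symm hn.1), xG_zero, mul_one]
    intro L
    induction L with
    | nil => simp
    | cons a L ih =>
      intro hnd hmem
      rw [wordL_cons]
      rcases List.mem_cons.mp hmem with rfl | hm
      · rw [hzero L (List.nodup_cons.mp hnd).1, if_pos rfl, mul_one]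
      · have hne : a ≠ r := fun e => (List.nodup_cons.mp hnd).1 (e ▸ hm)
        rw [ih (List.nodup_cons.mp hnd).2 hm, if_neg hne, xG_zero, one_mul]
  rw [← hsingle _ hnd (mem_posRoots.mpr hp)] at he
  have e1 := wordL_inj ax' h h2 hG he
  have hm : wordL ax D.posRoots t ∈ rootClosure ax (· = r) := by
    apply wordL_mem_of_supp
    intro s hs hts
    by_contra hne
    have := e1 s hs
    rw [if_neg hne] at this
    exact hts (ι.injective (by rw [this, map_zero]))
  exact mem_rootSubgroup h ax hm

end Cfsg.Agent.Lib.TorD4.Base
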