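import Cfsg.Agent.Lib.Twisted.Bruhat
import Cfsg.Agent.Lib.Chev.Order1

/-!
The centralizer of a diagonal element in a Chevalley group, through the Bruhat normal form.
-/

set_option autoImplicit false
set_option linter.unusedSectionVars false
set_option linter.unusedVariables false
set_option linter.ambiguousOpen false

namespace Cfsg.Agent.Lib.TorD4.Cent

open scoped MatrixGroups Matrix
open Cfsg Lie ChevalleyDatum
open Cfsg.Agent.Lib.Chev
open Tables Tables2 Tables3 Raise Basic AxBasic Torus Products Products2 Mono1 Mono2 Mono3 Bn Order1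
open Cfsg.Agent.Lib.Twisted.Bruhat

variable {D : ChevalleyDatum} {F : Type*} [Field F]

variable (h : Tab D) (h2 : Tab2 D) (ax : Ax D F)

/-- An ordered product with coefficients vanishing outside `P` lies in the closure of `P`. -/
lemma wordL_mem_of_supp {P : ℕ → Prop} {L : List ℕ} {t : ℕ → F}
    (hP : ∀ r ∈ L, t r ≠ 0 → P r) : wordL ax L t ∈ rootClosure ax P := by
  induction L with
  | nil => rw [wordL_nil]; exact Subgroup.one_mem _
  | cons a L ih =>
    rw [wordL_cons]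
    apply Subgroup.mul_mem
    · by_cases ht : t a = 0
      · rw [ht, xG_zero]; exact Subgroup.one_mem _
      · exact xG_mem_rootClosure ax (hP a (by simp) ht) _
    · exact ih fun r hr => hP r (by simp [hr])

include h in
/-- Conjugating an ordered product by a diagonal element. -/
lemma tor_conj_wordL (y : ℕ → Fˣ) {L : List ℕ} (hL : ∀ r ∈ L, r < D.nroots) (t : ℕ → F) :
    tor D y * wordL ax L t * (tor D y)⁻¹ = wordL ax L fun r => ((chi D y r : Fˣ) : F) * t r := by
  induction L with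
  | nil => simp [wordL_nil]
  | cons a L ih =>
    rw [wordL_cons, wordL_cons, ← ih fun r hr => hL r (by simp [hr]),
      ← tor_conj_xG ax h y (hL a (by simp)) (t a)]
    group

include h h2 in
/-- An element of `U` commuting with a diagonal element is generated by root elements commuting with
it. -/
theorem mem_of_comm {y : ℕ → Fˣ} {u : GL D.Idx F} (hu : u ∈ D.posUnipotent F)
    (hc : tor D y * u = u * tor D y) :
    u ∈ rootClosure ax (fun r => D.IsPosRoot r ∧ chi D y r = 1) := by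
  rw [← rootClosure_posRoots ax] at hu
  have hG := goodList_posRoots h (D := D)
  obtain ⟨t, rfl⟩ := exists_wordL ax h hG hu
  have e : tor D y * wordL ax D.posRoots t * (tor D y)⁻¹ = wordL ax D.posRoots t := by
    rw [hc]; group
  rw [tor_conj_wordL h ax y (fun r hr => (mem_posRoots.mp hr).1)] at e
  have e1 := wordL_inj ax h h2 hG e
  apply wordL_mem_of_supp
  intro r hr ht
  refine ⟨mem_posRoots.mp hr, ?_⟩
  have e2 := e1 r hr
  have e3 : ((chi D y r : Fˣ) : F) = 1 := by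
    exact mul_right_cancel₀ ht (by rw [e2, one_mul])
  exact Units.ext e3

/-- Conjugation by a diagonal element preserves the part of `U` inverted by `n`. -/
lemma conj_invS (h : Tab D) (ax : Ax D F) (y : ℕ → Fˣ) (n : GL D.Idx F) {u : GL D.Idx F} (hu : u ∈ invS D F n) :
    tor D y * u * (tor D y)⁻¹ ∈ invS D F n := by
  have hle : invS D F n ≤ (invS D F n).comap (MulAut.conj (tor D y)).toMonoidHom := by
    rw [invS, Subgroup.closure_le]
    rintro x ⟨r, t, hr, hm, hx⟩
    have ex : x = xG ax r t := Units.ext (by rw [hx, xG_val])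
    subst ex
    simp only [SetLike.mem_coe, Subgroup.mem_comap, MulEquiv.coe_toMonoidHom, MulAut.conj_apply]
    rw [tor_conj_xG ax h y hr.1]
    exact Subgroup.subset_closure ⟨r, _, hr, hm, xG_val ax r _⟩
  have := hle hu
  simpa using this

include h h2 ax in
/-- The shape of an element commuting with a diagonal element of `H`. -/
theorem cent_form {y : ℕ → Fˣ} (hy : tor D y ∈ D.diagonalSubgroup F) {g : GL D.Idx F} (hg : g ∈ D.group F)
    (hc : tor D y * g = g * tor D y) :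
    ∃ u₁ ∈ D.posUnipotent F, ∃ a ∈ D.diagonalSubgroup F, ∃ n ∈ D.monomialSubgroup F, ∃ u₂ ∈ invS D F n,
      g = u₁ * a * n * u₂ ∧ tor D y * u₁ = u₁ * tor D y ∧ tor D y * n = n * tor D y ∧
        tor D y * u₂ = u₂ * tor D y := by
  obtain ⟨hex, huniq⟩ := normal_form h h2 ax
  obtain ⟨b, hb, n, hn, u, hu, rfl⟩ := hex g hg
  obtain ⟨u₁, hu₁, a, ha, rfl⟩ := (mem_borel_iff ax h).mp hb
  set T := tor D y with hT
  have hTa : T * a = a * T := diagonal_comm ax h hy ha
  set d := T * n * T⁻¹ * n⁻¹ with hd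
  have hdH : d ∈ D.diagonalSubgroup F := by
    have h1 : n * T⁻¹ * n⁻¹ ∈ D.diagonalSubgroup F := by
      have hnorm := diagonal_normal_monomial h h2 ax
      obtain ⟨π, c, H⟩ := exists_isNor h h2 ax hn
      exact H.conj_mem_H h ax (Subgroup.inv_mem _ hy)
    have e : d = T * (n * T⁻¹ * n⁻¹) := by rw [hd]; group
    rw [e]
    exact Subgroup.mul_mem _ hy h1
  set u₁' := T * u₁ * T⁻¹ with hu₁'
  have hu₁'U : u₁' ∈ D.posUnipotent F := diagonal_conj_U ax h hy hu₁
  set u' := T * u * T⁻¹ with hu'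
  have hu'S : u' ∈ invS D F n := conj_invS h ax y n hu
  have e0 : u₁ * a * n * u = (u₁' * (a * d)) * n * u' := by
    have e1 : T * (u₁ * a * n * u) * T⁻¹ = u₁ * a * n * u := by rw [hc]; group
    rw [← e1, hu₁', hu', hd]
    have e2 : a = T * a * T⁻¹ := by rw [hTa]; group
    calc T * (u₁ * a * n * u) * T⁻¹
        = T * u₁ * (a * T⁻¹ * T) * n * u * T⁻¹ := by group
      _ = T * u₁ * (T⁻¹ * (T * a)) * n * u * T⁻¹ := by group
      _ = T * u₁ * (T⁻¹ * (a * T)) * n * u * T⁻¹ := by rw [hTa]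
      _ = _ := by
          have ed : a * (T * n * T⁻¹ * n⁻¹) * n = a * T * n * T⁻¹ := by group
          calc T * u₁ * (T⁻¹ * (a * T)) * n * u * T⁻¹ = T * u₁ * T⁻¹ * (a * T * n * T⁻¹) * (T * u * T⁻¹) := by group
            _ = _ := by rw [← ed]; group
  have hB1 : u₁ * a ∈ D.borelSubgroup F := (mem_borel_iff ax h).mpr ⟨u₁, hu₁, a, ha, rfl⟩
  have hB2 : u₁' * (a * d) ∈ D.borelSubgroup F :=
    (mem_borel_iff ax h).mpr ⟨u₁', hu₁'U, a * d, Subgroup.mul_mem _ ha hdH, rfl⟩
  obtain ⟨-, hun⟩ := huniq _ _ n n u u' hB1 hB2 hn hn hu hu'S e0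
  obtain ⟨e1, e2⟩ := hun rfl
  have e3 : u₁'⁻¹ * u₁ = (a * d) * a⁻¹ := by
    calc u₁'⁻¹ * u₁ = u₁'⁻¹ * (u₁ * a) * a⁻¹ := by group
      _ = u₁'⁻¹ * (u₁' * (a * d)) * a⁻¹ := by rw [e1]
      _ = _ := by group
  have h4 : u₁'⁻¹ * u₁ ∈ D.posUnipotent F ⊓ D.diagonalSubgroup F := by
    refine ⟨Subgroup.mul_mem _ (Subgroup.inv_mem _ hu₁'U) hu₁, ?_⟩
    rw [e3]
    exact Subgroup.mul_mem _ (Subgroup.mul_mem _ ha hdH) (Subgroup.inv_mem _ ha)
  rw [U_inf_H ax h, Subgroup.mem_bot] at h4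
  have e5 : u₁' = u₁ := inv_mul_eq_one.mp h4
  have e6 : a * d = a := by
    rw [e5] at e1
    exact (mul_left_cancel e1).symm
  have e7 : d = 1 := mul_eq_left.mp e6
  refine ⟨u₁, hu₁, a, ha, n, hn, u, hu, rfl, ?_, ?_, ?_⟩
  · rw [hu₁'] at e5
    calc T * u₁ = T * u₁ * T⁻¹ * T := by group
      _ = _ := by rw [e5]
  · have e8 : T * n * T⁻¹ = n := by
      have : T * n * T⁻¹ * n⁻¹ = 1 := e7
      exact mul_inv_eq_one.mp this
    calc T * n = T * n * T⁻¹ * T := by group
      _ = _ := by rw [e8]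
  · rw [hu'] at e2
    calc T * u = T * u * T⁻¹ * T := by group
      _ = _ := by rw [← e2]

include h h2 ax in
/-- An element of `N` commuting with a diagonal element permutes its weights. -/
theorem chi_of_comm_N {y : ℕ → Fˣ} {n : GL D.Idx F} (hn : n ∈ D.monomialSubgroup F)
    (hc : tor D y * n = n * tor D y) :
    ∃ a ∈ D.diagonalSubgroup F, ∃ l : List ℕ, (∀ i ∈ l, i < D.rank) ∧ n = a * nw D ax l ∧
      ∀ r, r < D.nroots → chi D y (wWord D l r) = chi D y r := by
  rw [monomial_eq_monoS h h2 ax] at hn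
  obtain ⟨a, ha, l, hl, e⟩ := monoS_form h h2 ax hn
  refine ⟨a, ha, l, hl, e, ?_⟩
  intro r hr
  obtain ⟨c, H⟩ := isNor_mul_nw h h2 ax ha hl
  rw [← e] at H
  have e1 := H.conj ⟨r, hr⟩ 1
  simp only at e1
  have hπ : (((wPw h l) ⟨r, hr⟩ : Fin D.nroots) : ℕ) = wWord D l r := wPw_val h hl ⟨r, hr⟩
  rw [hπ] at e1
  have hw : wWord D l r < D.nroots := wWord_lt h hl hr
  -- conjugate by the torus
  have e2 : tor D y * (n * xG ax r 1 * n⁻¹) * (tor D y)⁻¹ = n * (tor D y * xG ax r 1 * (tor D y)⁻¹) * n⁻¹ := by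
    calc tor D y * (n * xG ax r 1 * n⁻¹) * (tor D y)⁻¹
        = (tor D y * n) * xG ax r 1 * (n⁻¹ * (tor D y)⁻¹) := by group
      _ = (n * tor D y) * xG ax r 1 * (n⁻¹ * (tor D y)⁻¹) := by rw [hc]
      _ = (n * tor D y) * xG ax r 1 * (tor D y * n)⁻¹ := by rw [mul_inv_rev]
      _ = (n * tor D y) * xG ax r 1 * (n * tor D y)⁻¹ := by rw [hc]
      _ = _ := by group
  rw [e1, tor_conj_xG ax h y hw, tor_conj_xG ax h y hr] at e2
  have e3 := H.conj ⟨r, hr⟩ (((chi D y r : Fˣ) : F) * 1)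
  simp only at e3
  rw [hπ] at e3
  rw [e3] at e2
  have e4 := xG_eq_iff ax h h2 hw hw (mul_ne_zero (Units.ne_zero _) (mul_ne_zero (Units.ne_zero _) one_ne_zero)) e2
  apply Units.ext
  have e5 := e4.2
  have hc0 := (c ⟨r, hr⟩).ne_zero
  have : ((c ⟨r, hr⟩ : Fˣ) : F) * ((chi D y (wWord D l r) : Fˣ) : F) = (c ⟨r, hr⟩ : Fˣ) * ((chi D y r : Fˣ) : F) := by
    linear_combination e5
  exact mul_left_cancel₀ hc0 this

include h h2 in
/-- A word fixing the fundamental roots is trivial. -/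
lemma wPw_eq_one_of_simple {l : List ℕ} (hl : ∀ i ∈ l, i < D.rank)
    (hs : ∀ k, k < D.rank → wWord D l (D.simple k) = D.simple k) : wPw h l = 1 := by
  refine Equiv.ext fun s => Fin.ext ?_
  rw [wPw_val h hl]
  apply eq_of_coef_eq h (wWord_lt h hl s.isLt) s.isLt
  intro j hj
  rw [coef_wWord h hl s.isLt hj]
  rw [Finset.sum_congr rfl (fun k hk => by rw [hs k (Finset.mem_range.mp hk), h.coef_simple k (Finset.mem_range.mp hk) j hj])]
  simp only [mul_ite, mul_one, mul_zero]
  rw [Finset.sum_ite_eq]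
  simp [Finset.mem_range, hj]

end Cfsg.Agent.Lib.TorD4.Cent
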