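import Cfsg.Agent.Lib.TorD4.Base

/-!
An element whose image over a larger field lies in a root `SL₂` times the torus has the same form over
the smaller field.
-/

set_option autoImplicit false
set_option linter.unusedSectionVars false
set_option linter.unusedVariables false
set_option linter.ambiguousOpen false

namespace Cfsg.Agent.Lib.TorD4.Compare

open scoped MatrixGroups Matrix
open Cfsg Lie ChevalleyDatum
open Cfsg.Agent.Lib.Chev
open Tables Tables2 Tables3 Raise Basic AxBasic Torus Products Products2 Mono1 Mono2 Mono3 Bn Order1 SL2 SL2Chev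
open Cfsg.Agent.Lib.Twisted.Bruhat Cfsg.Agent.Lib.Twisted.Tw
open Cfsg.Agent.Lib.TorD4.Cent Cfsg.Agent.Lib.TorD4.Root Cfsg.Agent.Lib.TorD4.Base

variable {D : ChevalleyDatum} {F F' : Type*} [Field F] [Field F'] (ι : F →+* F')

variable (h : Tab D) (h2 : Tab2 D) (ax : Ax D F) (ax' : Ax D F')

/-- Uniqueness in `B = UH`. -/
lemma UH_unique (ax : Ax D F) (h : Tab D) {u u' a a' : GL D.Idx F} (hu : u ∈ D.posUnipotent F) (hu' : u' ∈ D.posUnipotent F)
    (ha : a ∈ D.diagonalSubgroup F) (ha' : a' ∈ D.diagonalSubgroup F) (he : u * a = u' * a') : u = u' ∧ a = a' := by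
  have e1 : u'⁻¹ * u = a' * a⁻¹ := by
    calc u'⁻¹ * u = u'⁻¹ * (u * a) * a⁻¹ := by group
      _ = u'⁻¹ * (u' * a') * a⁻¹ := by rw [he]
      _ = _ := by group
  have h4 : u'⁻¹ * u ∈ D.posUnipotent F ⊓ D.diagonalSubgroup F := by
    refine ⟨Subgroup.mul_mem _ (Subgroup.inv_mem _ hu') hu, ?_⟩
    rw [e1]
    exact Subgroup.mul_mem _ ha' (Subgroup.inv_mem _ ha)
  rw [U_inf_H ax h, Subgroup.mem_bot] at h4
  have h5 : u' = u := inv_mul_eq_one.mp h4
  subst h5
  exact ⟨rfl, mul_left_cancel he⟩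

lemma x_mem_U (ax : Ax D F) {r : ℕ} (hp : D.IsPosRoot r) (t : F) : xG ax r t ∈ D.posUnipotent F := by
  rw [posUnipotent_eq ax]
  exact xG_mem_rootClosure ax hp t

include h h2 in
/-- The root element of a simple root in `invS`. -/
lemma x_mem_invS {i : ℕ} (hi : i < D.rank) (d : F) : xG ax (D.simple i) d ∈ invS D F (sG ax i) := by
  have hp := simple_isPos h hi
  have hr := h.simple_lt i hi
  refine Subgroup.subset_closure ⟨D.simple i, d, hp, ?_, xG_val ax _ _⟩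
  rw [Subgroup.map_le_iff_le_comap, rootSubgroup_eq ax]
  apply rootClosure_le
  rintro s w rfl
  simp only [Subgroup.mem_comap, MulEquiv.coe_toMonoidHom, MulAut.conj_apply]
  rw [sG, (rel_all h h2 ax hr).1 1 w one_ne_zero, negUnipotent_eq ax]
  have hn : D.IsNegRoot (D.neg (D.simple i)) := by
    apply (isPosRoot_neg h (h.neg_lt _ hr)).mp
    rw [h.neg_neg _ hr]
    exact hp
  exact xG_mem_rootClosure ax hn _

include h h2 in
/-- Only the simple root is inverted by the reflection. -/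
lemma invS_le {n : GL D.Idx F} {c : Fin D.nroots → Fˣ} {i : ℕ} (hi : i < D.rank)
    (H : IsNor h ax n (wP h i) c) : invS D F n ≤ rootClosure ax (· = D.simple i) := by
  rw [invS, Subgroup.closure_le]
  rintro x ⟨r, t, hr, hm, hx⟩
  have e : x = xG ax r t := Units.ext (by rw [hx, xG_val])
  subst e
  by_cases hs : r = D.simple i
  · rw [hs]
    exact xG_mem_rootClosure ax (P := (· = D.simple i)) (r := D.simple i) rfl t
  · exfalso
    have hpos := isPos_reflect h h2 hi hr hs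
    have e1 := H.conj ⟨r, hr.1⟩ 1
    simp only at e1
    have hπ : (((wP h i) ⟨r, hr.1⟩ : Fin D.nroots) : ℕ) = D.reflectRoot i r := by
      rw [wP_of_lt h hi, wF_val]
    rw [hπ] at e1
    have h3 : n * xG ax r 1 * n⁻¹ ∈ D.negUnipotent F := by
      apply hm
      refine ⟨xG ax r 1, ?_, rfl⟩
      rw [rootSubgroup_eq ax]
      exact xG_mem_rootClosure ax (P := (· = r)) (r := r) rfl 1
    rw [e1] at h3
    have h4 : xG ax (D.reflectRoot i r) (((c ⟨r, hr.1⟩ : Fˣ) : F) * 1) ∈ D.borelSubgroup F := xG_mem_borel h h2 ax hpos _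
    have h5 : xG ax (D.reflectRoot i r) (((c ⟨r, hr.1⟩ : Fˣ) : F) * 1) ∈ D.borelSubgroup F ⊓ D.negUnipotent F := ⟨h4, h3⟩
    rw [borel_inf_V ax h, Subgroup.mem_bot] at h5
    have hne : ((c ⟨r, hr.1⟩ : Fˣ) : F) * 1 ≠ 0 := mul_ne_zero (Units.ne_zero _) one_ne_zero
    have e6 : xG ax (D.reflectRoot i r) (((c ⟨r, hr.1⟩ : Fˣ) : F) * 1) = xG ax (D.reflectRoot i r) 0 := by
      rw [h5, xG_zero]
    exact hne (xG_eq_iff ax h h2 hpos.1 hpos.1 hne e6).2

/-- The comparison of Bruhat decompositions. -/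
theorem form_of_image {i : ℕ} (hi : i < D.rank) {y : GL D.Idx F} (hy : y ∈ D.group F)
    {A : SL(2, F')} {T : GL D.Idx F'} (hT : T ∈ D.diagonalSubgroup F')
    (he : mu ι D y = fH h h2 ax' (h.simple_lt i hi) A * T) :
    ∃ (c d : F) (a : GL D.Idx F), a ∈ D.diagonalSubgroup F ∧
      (y = xG ax (D.simple i) c * a * xG ax (D.simple i) d ∨ y = xG ax (D.simple i) c * a * sG ax i * xG ax (D.simple i) d) := by
  set r := D.simple i with hr0
  have hr : r < D.nroots := h.simple_lt i hi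
  have hp : D.IsPosRoot r := simple_isPos h hi
  obtain ⟨b, hb, n, hn, u, hu, rfl⟩ := (normal_form h h2 ax).1 y hy
  have hn' : n ∈ monoS D ax := by rw [← monomial_eq_monoS h h2 ax]; exact hn
  obtain ⟨a₀, ha₀, l, hl, en⟩ := monoS_form h h2 ax hn'
  have hUB : ∀ {x : GL D.Idx F'}, x ∈ D.posUnipotent F' → x ∈ D.borelSubgroup F' := fun hx =>
    (le_sup_left : D.posUnipotent F' ≤ D.borelSubgroup F') hx
  have hHB : ∀ {x : GL D.Idx F'}, x ∈ D.diagonalSubgroup F' → x ∈ D.borelSubgroup F' := fun hx =>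
    (le_sup_right : D.diagonalSubgroup F' ≤ D.borelSubgroup F') hx
  have hμb := mu_B ι ax ax' h hb
  have hμu : mu ι D u ∈ D.borelSubgroup F' := hUB (mu_U ι ax ax' (invS_le_U ax n hu))
  have hμn : mu ι D n ∈ D.monomialSubgroup F' := by
    rw [en, map_mul, mu_nw ι ax ax']
    exact Subgroup.mul_mem _ ((le_sup_left : D.diagonalSubgroup F' ≤ D.monomialSubgroup F') (mu_H ι ax ax' h ha₀))
      (nw_mem_monomial_aux h h2 ax' hl)
  have hnwN := nw_mem_monomial_aux h h2 ax hl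
  have hnwN' := nw_mem_monomial_aux h h2 ax' hl
  -- transfer of permutations
  have hperm : ∀ {m : GL D.Idx F'} (hm : m ∈ D.monomialSubgroup F'),
      (mu ι D n)⁻¹ * m ∈ D.diagonalSubgroup F' → piN h h2 ax' ⟨m, hm⟩ = wPw h l := by
    intro m hm hd
    have e1 : mu ι D n = mu ι D a₀ * nw D ax' l := by rw [en, map_mul, mu_nw ι ax ax']
    have h1 : piN h h2 ax' ⟨mu ι D n, hμn⟩ = wPw h l := by
      have hm1 : mu ι D a₀ ∈ D.diagonalSubgroup F' := mu_H ι ax ax' h ha₀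
      have hm2 : mu ι D a₀ ∈ D.monomialSubgroup F' := (le_sup_left : D.diagonalSubgroup F' ≤ D.monomialSubgroup F') hm1
      have e2 : (⟨mu ι D n, hμn⟩ : ↥(D.monomialSubgroup F')) = ⟨mu ι D a₀, hm2⟩ * ⟨nw D ax' l, hnwN'⟩ := Subtype.ext e1
      rw [e2, map_mul, (piN_eq_one_iff h h2 ax' _).mpr hm1, one_mul, piN_nw h h2 ax' hl]
    have h2' : piN h h2 ax' (⟨mu ι D n, hμn⟩⁻¹ * ⟨m, hm⟩) = 1 := (piN_eq_one_iff h h2 ax' _).mpr hd
    rw [map_mul, map_inv, inv_mul_eq_one] at h2'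
    rw [← h2', h1]
  by_cases hc : A.1 1 0 = 0
  · -- the Borel case
    have ha0 := ne_zero_of_c hc
    have e0 : fH h h2 ax' hr A = hG ax' r (A.1 0 0) * xG ax' r (A.1 0 1 / A.1 0 0) := by
      rw [fH_apply, phiF_of_c0 hc]
      rfl
    have hhH : hG ax' r (A.1 0 0) ∈ D.diagonalSubgroup F' := hG_mem_diagonal ax' hr ha0
    obtain ⟨z, hz⟩ := exists_tor_of_mem ax' h hhH
    have e1 : fH h h2 ax' hr A * T = xG ax' r ((chi D z r : F'ˣ) * (A.1 0 1 / A.1 0 0)) * (hG ax' r (A.1 0 0) * T) := by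
      rw [e0, hz, ← mul_assoc, tor_mul_xG ax' h z hr]
    set β := ((chi D z r : F'ˣ) : F') * (A.1 0 1 / A.1 0 0) with hβ
    have hT' : hG ax' r (A.1 0 0) * T ∈ D.diagonalSubgroup F' := Subgroup.mul_mem _ hhH hT
    rw [e1] at he
    have hnH : (mu ι D n)⁻¹ * 1 ∈ D.diagonalSubgroup F' := by
      refine cell_unique h h2 ax' hμb hμu (b₁' := xG ax' r β * (hG ax' r (A.1 0 0) * T)) (n' := 1) (b₂' := 1) ?_ ?_ hμn
        (Subgroup.one_mem _) ?_
      · exact Subgroup.mul_mem _ (hUB (x_mem_U ax' hp _)) (hHB hT')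
      · exact Subgroup.one_mem _
      · rw [← map_mul, ← map_mul, he, mul_one, mul_one]
    have hw := hperm (Subgroup.one_mem _) hnH
    have hw1 : wPw h l = 1 := by
      rw [← hw]
      exact (piN_eq_one_iff h h2 ax' _).mpr (Subgroup.one_mem _)
    have hnwH : nw D ax l ∈ D.diagonalSubgroup F := by
      exact (piN_eq_one_iff h h2 ax ⟨nw D ax l, hnwN⟩).mp ((piN_nw h h2 ax hl).trans hw1)
    have hnH' : n ∈ D.diagonalSubgroup F := by
      rw [en]
      exact Subgroup.mul_mem _ ha₀ hnwH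
    obtain ⟨u₁, hu₁, a₁, ha₁, rfl⟩ := (mem_borel_iff ax h).mp hb
    have hm : (a₁ * n) * u * (a₁ * n)⁻¹ ∈ D.posUnipotent F :=
      diagonal_conj_U ax h (Subgroup.mul_mem _ ha₁ hnH') (invS_le_U ax n hu)
    set u₂ := u₁ * ((a₁ * n) * u * (a₁ * n)⁻¹) with hu₂
    have hu₂U : u₂ ∈ D.posUnipotent F := Subgroup.mul_mem _ hu₁ hm
    have e2 : u₁ * a₁ * n * u = u₂ * (a₁ * n) := by
      rw [hu₂]; group
    rw [e2, map_mul] at he
    obtain ⟨e3, -⟩ := UH_unique ax' h (mu_U ι ax ax' hu₂U) (x_mem_U ax' hp β)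
      (mu_H ι ax ax' h (Subgroup.mul_mem _ ha₁ hnH')) hT' he
    obtain ⟨c, hc'⟩ := eq_x_of_mu ι ax ax' h h2 hp hu₂U e3
    refine ⟨c, 0, a₁ * n, Subgroup.mul_mem _ ha₁ hnH', Or.inl ?_⟩
    rw [e2, hc', xG_zero, mul_one]
  · -- the big cell
    have hs0 : -1 / A.1 1 0 ≠ 0 := div_ne_zero (by simp) hc
    set s := -1 / A.1 1 0 with hs
    have e0 : fH h h2 ax' hr A = xG ax' r (A.1 0 0 / A.1 1 0) * nG ax' r s * xG ax' r (A.1 1 1 / A.1 1 0) := by
      rw [fH_apply, phiF_of_cne hc]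
      rfl
    obtain ⟨z, rfl⟩ := exists_tor_of_mem ax' h hT
    -- moving the diagonal part to the left
    have e1 : xG ax' r (A.1 1 1 / A.1 1 0) * tor D z =
        tor D z * xG ax' r ((chi D z⁻¹ r : F'ˣ) * (A.1 1 1 / A.1 1 0)) := by
      have := tor_mul_xG ax' h z⁻¹ hr (A.1 1 1 / A.1 1 0)
      rw [← tor_inv] at this
      calc xG ax' r (A.1 1 1 / A.1 1 0) * tor D z
          = tor D z * ((tor D z)⁻¹ * xG ax' r (A.1 1 1 / A.1 1 0)) * tor D z := by group
        _ = tor D z * (xG ax' r ((chi D z⁻¹ r : F'ˣ) * (A.1 1 1 / A.1 1 0)) * (tor D z)⁻¹) * tor D z := by rw [this]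
        _ = _ := by group
    set δ := ((chi D z⁻¹ r : F'ˣ) : F') * (A.1 1 1 / A.1 1 0) with hδ
    have hsN' : sG ax' i ∈ D.monomialSubgroup F' := sG_mem_monomial h h2 ax' hi
    obtain ⟨π, c0, H0⟩ := exists_isNor h h2 ax' hsN'
    have hconjH : sG ax' i * tor D z * (sG ax' i)⁻¹ ∈ D.diagonalSubgroup F' := H0.conj_mem_H h ax' hT
    have hhs : hG ax' r s ∈ D.diagonalSubgroup F' := hG_mem_diagonal ax' hr hs0
    set T'' := hG ax' r s * (sG ax' i * tor D z * (sG ax' i)⁻¹) with hT''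
    have hT''H : T'' ∈ D.diagonalSubgroup F' := Subgroup.mul_mem _ hhs hconjH
    have e2 : fH h h2 ax' hr A * tor D z = xG ax' r (A.1 0 0 / A.1 1 0) * T'' * sG ax' i * xG ax' r δ := by
      rw [e0, mul_assoc _ _ (tor D z), e1, nG_eq_hG_mul ax' r s, hT'']
      simp only [sG]
      rw [← hr0]
      group
    rw [e2] at he
    have hbL : xG ax' r (A.1 0 0 / A.1 1 0) * T'' ∈ D.borelSubgroup F' :=
      Subgroup.mul_mem _ (hUB (x_mem_U ax' hp _)) (hHB hT''H)
    have hnH : (mu ι D n)⁻¹ * sG ax' i ∈ D.diagonalSubgroup F' := by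
      refine cell_unique h h2 ax' hμb hμu (b₁' := xG ax' r (A.1 0 0 / A.1 1 0) * T'') (n' := sG ax' i) (b₂' := xG ax' r δ)
        hbL (hUB (x_mem_U ax' hp _)) hμn hsN' ?_
      rw [← map_mul, ← map_mul, he]
    have hw := hperm hsN' hnH
    have hwP : wPw h l = wP h i := by
      obtain ⟨c1, H1⟩ := exists_isNor_sG h ax' h2 (F := F') hi
      rw [← hw, piN_of_isNor h h2 ax' (g := ⟨sG ax' i, hsN'⟩) H1, wP_of_lt h hi]
    have hsN : sG ax i ∈ D.monomialSubgroup F := sG_mem_monomial h h2 ax hi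
    obtain ⟨c1, H1⟩ := exists_isNor_sG h ax h2 (F := F) hi
    have hpi : piN h h2 ax ⟨sG ax i, hsN⟩ = wP h i := by
      rw [piN_of_isNor h h2 ax (g := ⟨sG ax i, hsN⟩) H1, wP_of_lt h hi]
    have hm : nw D ax l * (sG ax i)⁻¹ ∈ D.diagonalSubgroup F := by
      have := (piN_eq_one_iff h h2 ax (⟨nw D ax l, hnwN⟩ * ⟨sG ax i, hsN⟩⁻¹)).mp (by
        rw [map_mul, map_inv, hpi, piN_nw h h2 ax hl, hwP, mul_inv_cancel])
      exact this
    set a₃ := a₀ * (nw D ax l * (sG ax i)⁻¹) with ha₃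
    have ha₃H : a₃ ∈ D.diagonalSubgroup F := Subgroup.mul_mem _ ha₀ hm
    have en' : n = a₃ * sG ax i := by rw [en, ha₃]; group
    -- the right factor
    obtain ⟨c2, H2⟩ := isNor_mul_nw h h2 ax ha₀ hl
    rw [← en, hwP] at H2
    have hu' : u ∈ rootClosure ax (· = D.simple i) := invS_le h h2 ax hi H2 hu
    obtain ⟨d, rfl⟩ := mem_rootSubgroup h ax hu'
    -- the left factor
    have hb' : b * a₃ ∈ D.borelSubgroup F :=
      Subgroup.mul_mem _ hb ((le_sup_right : D.diagonalSubgroup F ≤ D.borelSubgroup F) ha₃H)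
    obtain ⟨u₄, hu₄, a₄, ha₄, e4⟩ := (mem_borel_iff ax h).mp hb'
    have e5 : b * n * xG ax (D.simple i) d = u₄ * a₄ * sG ax i * xG ax (D.simple i) d := by
      rw [← e4, en']
      group
    rw [e5, map_mul, map_mul, map_mul, mu_sG ι ax ax', mu_x ι ax ax'] at he
    have hun := (normal_form h h2 ax').2 _ _ _ _ _ _
      (Subgroup.mul_mem _ (hUB (mu_U ι ax ax' hu₄)) (hHB (mu_H ι ax ax' h ha₄))) hbL hsN' hsN'
      (x_mem_invS h h2 ax' hi _) (x_mem_invS h h2 ax' hi _) he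
    obtain ⟨e6, -⟩ := hun.2 rfl
    obtain ⟨e7, -⟩ := UH_unique ax' h (mu_U ι ax ax' hu₄) (x_mem_U ax' hp _) (mu_H ι ax ax' h ha₄) hT''H e6
    obtain ⟨c, hc'⟩ := eq_x_of_mu ι ax ax' h h2 hp hu₄ e7
    refine ⟨c, d, a₄, ha₄, Or.inr ?_⟩
    rw [e5, hc']

end Cfsg.Agent.Lib.TorD4.Compare
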