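import Cfsg.Agent.Lib.TorD4.Core3
import Cfsg.Agent.Lib.TorD4.Compare

/-!
The centralizer of the element of order `21` in `³D₄(2)`, by passing to a field containing the cube
roots of unity.
-/

set_option autoImplicit false
set_option linter.unusedSectionVars false
set_option linter.unusedVariables false
set_option linter.ambiguousOpen false

namespace Cfsg.Agent.Lib.TorD4.Core2

open scoped MatrixGroups Matrix
open Cfsg Lie ChevalleyDatum
open Cfsg.Agent.Lib.Chev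
open Tables Tables2 Tables3 Raise Basic AxBasic Torus Products Products2 Mono1 Mono2 Mono3 Bn Order1 Diag SL2 SL2Chev
open Cfsg.Agent.Lib.Twisted.Bruhat Cfsg.Agent.Lib.Twisted.D4H Cfsg.Agent.Lib.Twisted.TorusFix
open Cfsg.Agent.Lib.Twisted.Tw
open Cfsg.Agent.Lib.TorD4.Root Cfsg.Agent.Lib.TorD4.Psi Cfsg.Agent.Lib.TorD4.Final
open Cfsg.Agent.Lib.TorD4.Fixed Cfsg.Agent.Lib.TorD4.Cent Cfsg.Agent.Lib.TorD4.Core3
open Cfsg.Agent.Lib.TorD4.Base Cfsg.Agent.Lib.TorD4.Compare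

theorem reg : ∀ r, r < 24 → ¬ ((3 : ℤ) ∣ pair chevD4 d4p2 r ∧ (7 : ℤ) ∣ E 2 r) := by
  decide +kernel

theorem C0 : ∀ s, s < 24 → (3 : ℤ) ∣ pair chevD4 d4p2 18 - pair chevD4 d4p2 s → (7 : ℤ) ∣ E 2 18 - E 2 s → s = 18 := by
  decide +kernel

theorem C1 : ∀ s, s < 24 → (3 : ℤ) ∣ pair chevD4 d4p2 14 - pair chevD4 d4p2 s → (7 : ℤ) ∣ E 2 14 - E 2 s →
    s = 14 ∨ s = 22 ∨ s = 0 := by
  decide +kernel

theorem C2 : ∀ s, s < 24 → (3 : ℤ) ∣ pair chevD4 d4p2 13 - pair chevD4 d4p2 s → (7 : ℤ) ∣ E 2 13 - E 2 s → s = 13 := by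
  decide +kernel

theorem C3 : ∀ s, s < 24 → (3 : ℤ) ∣ pair chevD4 d4p2 12 - pair chevD4 d4p2 s → (7 : ℤ) ∣ E 2 12 - E 2 s → s = 12 := by
  decide +kernel

theorem C4 : ∀ a ∈ [14, 22, 0], chk 18 a 13 12 19 → a = 14 := by
  decide +kernel

/-- A word preserving the weights is trivial. -/
theorem word_trivial {l : List ℕ} (hl : ∀ i ∈ l, i < chevD4.rank)
    (hc : ∀ r, r < 24 → (3 : ℤ) ∣ pair chevD4 d4p2 r - pair chevD4 d4p2 (wWord chevD4 l r) ∧
      (7 : ℤ) ∣ E 2 r - E 2 (wWord chevD4 l r)) : wPw hD l = 1 := by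
  have hlt : ∀ {s : ℕ}, s < 24 → wWord chevD4 l s < 24 := fun hs => wWord_lt hD hl hs
  have a₀ := C0 _ (hlt (by norm_num)) (hc 18 (by norm_num)).1 (hc 18 (by norm_num)).2
  have a₁ := C1 _ (hlt (by norm_num)) (hc 14 (by norm_num)).1 (hc 14 (by norm_num)).2
  have a₂ := C2 _ (hlt (by norm_num)) (hc 13 (by norm_num)).1 (hc 13 (by norm_num)).2
  have a₃ := C3 _ (hlt (by norm_num)) (hc 12 (by norm_num)).1 (hc 12 (by norm_num)).2
  have hk := wWord_chk hl (s := 19) (by norm_num)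
  rw [a₀, a₂, a₃] at hk
  have b₁ := C4 _ (by simpa using a₁) hk
  obtain ⟨e0, e1, e2, e3⟩ := simple_vals
  apply wPw_eq_one_of_simple hD hD2 hl
  intro k hk
  have hk4 : k < 4 := hk
  interval_cases k
  · rw [e0]; exact a₀
  · rw [e1]; exact b₁
  · rw [e2]; exact a₂
  · rw [e3]; exact a₃

section Arith

variable {G : Type*} [CommGroup G] {x y : G}

lemma dvd_of_eq (hx : orderOf x = 3) (hy : orderOf y = 7) {a b c d : ℤ}
    (he : x ^ a * y ^ b = x ^ c * y ^ d) : (3 : ℤ) ∣ a - c ∧ (7 : ℤ) ∣ b - d := by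
  have hx3 : x ^ (3 : ℤ) = 1 := by
    have := pow_orderOf_eq_one x
    rw [hx] at this
    exact_mod_cast this
  have hy7 : y ^ (7 : ℤ) = 1 := by
    have := pow_orderOf_eq_one y
    rw [hy] at this
    exact_mod_cast this
  have e1 : x ^ (a - c) * y ^ (b - d) = 1 := by
    rw [zpow_sub, zpow_sub]
    calc x ^ a * (x ^ c)⁻¹ * (y ^ b * (y ^ d)⁻¹) = (x ^ a * y ^ b) * (x ^ c * y ^ d)⁻¹ := by
          rw [mul_inv]
          exact mul_mul_mul_comm _ _ _ _
      _ = 1 := by rw [he]; exact mul_inv_cancel _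
  have e2 : x ^ (a - c) = 1 := by
    have h7 : (x ^ (a - c) * y ^ (b - d)) ^ (7 : ℤ) = 1 := by rw [e1, one_zpow]
    rw [mul_zpow, ← zpow_mul y, mul_comm (b - d), zpow_mul y, hy7, one_zpow, mul_one, ← zpow_mul] at h7
    have h6 : x ^ (2 * 3 * (a - c)) = 1 := by
      rw [show (2 * 3 * (a - c) : ℤ) = 3 * (2 * (a - c)) by ring, zpow_mul, hx3, one_zpow]
    have h3 : x ^ ((a - c) * 7 - 2 * 3 * (a - c)) = 1 := by
      rw [zpow_sub, h7, h6, one_mul, inv_one]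
    have e : (a - c) * 7 - 2 * 3 * (a - c) = a - c := by ring
    rwa [e] at h3
  have e3 : y ^ (b - d) = 1 := by
    rw [e2, one_mul] at e1
    exact e1
  constructor
  · have := orderOf_dvd_iff_zpow_eq_one.mpr e2
    rwa [hx] at this
  · have := orderOf_dvd_iff_zpow_eq_one.mpr e3
    rwa [hy] at this

end Arith

variable {K L : Type*} [Field K] [Finite K] [Field L] (ι : K →+* L) (ax : Ax chevD4 K) (axL : Ax chevD4 L)
  (φ : K ≃+* K) (hφ : ∀ t, φ t = t ^ 2) (hφ3 : ∀ t, φ (φ (φ t)) = t)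
  (ω : Lˣ) (hω : (ω : L) ^ 2 + ω + 1 = 0) (h2L : (2 : L) = 0)

include hω in
lemma ω_cube : ω ^ 3 = 1 := by
  apply Units.ext
  simp only [Units.val_pow_eq_pow_val, Units.val_one]
  linear_combination ((ω : L) - 1) * hω

/-- The matrix of eigenvectors. -/
def Qm (hω : (ω : L) ^ 2 + ω + 1 = 0) (h2L : (2 : L) = 0) : SL(2, L) :=
  ⟨!![(ω : L), (ω : L) ^ 2; 1, 1], by
    rw [Matrix.det_fin_two]
    simp only [Matrix.of_apply, Matrix.cons_val', Matrix.cons_val_zero, Matrix.cons_val_one]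
    linear_combination (-1 : L) * hω + (ω : L) * h2L⟩

/-- The diagonal matrix. -/
def Dm (hω : (ω : L) ^ 2 + ω + 1 = 0) : SL(2, L) :=
  ⟨!![(ω : L), 0; 0, (ω : L) ^ 2], by
    rw [Matrix.det_fin_two]
    simp only [Matrix.of_apply, Matrix.cons_val', Matrix.cons_val_zero, Matrix.cons_val_one]
    linear_combination ((ω : L) - 1) * hω⟩

include hω h2L in
lemma map_A_Q {A₀ : SL(2, K)} (hA : A₀.1 = !![1, 1; 1, 0]) :
    Matrix.SpecialLinearGroup.map ι A₀ * Qm ω hω h2L = Qm ω hω h2L * Dm ω hω := by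
  have e : (Matrix.SpecialLinearGroup.map ι A₀).1 = !![1, 1; 1, 0] := by
    show A₀.1.map ι = _
    rw [hA]
    ext i j
    fin_cases i <;> fin_cases j <;> simp
  apply Subtype.ext
  show (Matrix.SpecialLinearGroup.map ι A₀).1 * (Qm ω hω h2L).1 = (Qm ω hω h2L).1 * (Dm ω hω).1
  rw [e]
  have h3 := ω_cube ω hω
  have h3' : (ω : L) ^ 3 = 1 := by
    have := congrArg Units.val h3
    simpa using this
  ext i j
  fin_cases i <;> fin_cases j <;>
    simp [Qm, Dm, Matrix.mul_apply, Fin.sum_univ_two]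
  · linear_combination (-1 : L) * hω + ((ω : L) + 1) * h2L
  · linear_combination hω + (-(ω : L)) * h3' + (-(ω : L)) * h2L

section Root

variable {D : ChevalleyDatum} {F : Type*} [Field F]

lemma fH_congr (h : Tab D) (h2 : Tab2 D) (ax : Ax D F) {r r' : ℕ} (e : r = r') (hr : r < D.nroots) (hr' : r' < D.nroots)
    (M : SL(2, F)) : fH h h2 ax hr M = fH h h2 ax hr' M := by
  subst e
  rfl

lemma fH_mem (h : Tab D) (h2 : Tab2 D) (ax : Ax D F) {r : ℕ} (hr : r < D.nroots) (M : SL(2, F)) :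
    fH h h2 ax hr M ∈ D.group F := by
  rw [fH_apply]
  by_cases hc : M.1 1 0 = 0
  · rw [phiF_of_c0 hc, HH_eq]
    exact Subgroup.mul_mem _ (hG_mem_group h ax hr _) (xG_mem_group ax hr _)
  · rw [phiF_of_cne hc, WW_eq]
    exact Subgroup.mul_mem _ (Subgroup.mul_mem _ (xG_mem_group ax hr _) (nG_mem_group h ax hr _)) (xG_mem_group ax hr _)

lemma dconj_one (M : SL(2, F)) : dconj 1 M = M := by
  apply Subtype.ext
  ext i j
  fin_cases i <;> fin_cases j <;> simp [dconj]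

lemma eq_one_of_rootClosure_false {P : ℕ → Prop} (hP : ∀ r, ¬ P r) (ax : Ax D F) {u : GL D.Idx F}
    (hu : u ∈ rootClosure ax P) : u = 1 := by
  refine rootClosure_induction ax (Q := fun u => u = 1) rfl ?_ ?_ hu
  · intro r t hr
    exact absurd hr (hP r)
  · rintro a b rfl rfl
    exact one_mul 1

end Root

variable {A₀ : SL(2, K)} (hA : A₀.1 = !![1, 1; 1, 0]) {w₀ : Kˣ} (hw₀ : orderOf w₀ = 7) (hωo : orderOf ω = 3)

include ι axL hφ hφ3 hω h2L hA hw₀ hωo in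
/-- The centralizer of the element of order `21` in `³D₄(2)`. -/
theorem core2 {y : GL chevD4.Idx K} (hy : y ∈ twistedD4 K 2)
    (hc : y * (f ax A₀ * tor0 φ 1 w₀) = (f ax A₀ * tor0 φ 1 w₀) * y) : InC ax φ y := by
  have hq1 : 1 ≤ 2 := by norm_num
  have hFx := G1_le ax φ hφ hφ3 hy
  set fL := fH hD hD2 axL h14 with hfL
  set y' : ℕ → Lˣ := fun j => Units.map (ι : K →* L) (vec4 w₀ 1 (φu φ w₀) (φu φ (φu φ w₀)) j) with hy'
  have hμT : mu ι chevD4 (tor0 φ 1 w₀) = tor chevD4 y' := mu_tor ι _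
  have hμt : mu ι chevD4 (f ax A₀ * tor0 φ 1 w₀) = fL (Matrix.SpecialLinearGroup.map ι A₀) * tor chevD4 y' := by
    rw [map_mul, hμT]
    congr 1
    exact mu_fH ι ax axL hD hD2 h14 A₀
  set Q := Qm ω hω h2L with hQ
  set Dw := Dm ω hω with hDw
  have hchi1 : chi chevD4 y' d4p2 = 1 := by
    rw [chi14]
    simp [hy', vec4]
  have hcomm : ∀ M : SL(2, L), tor chevD4 y' * fL M = fL M * tor chevD4 y' := by
    intro M
    have := tor_conj_fH hD hD2 axL h14 y' M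
    rw [hchi1, dconj_one] at this
    calc tor chevD4 y' * fL M = (tor chevD4 y' * fL M * (tor chevD4 y')⁻¹) * tor chevD4 y' := by group
      _ = fL M * tor chevD4 y' := by rw [this]
  have hQA : Q⁻¹ * Matrix.SpecialLinearGroup.map ι A₀ * Q = Dw := by
    rw [mul_assoc, hQ, hDw, map_A_Q ι ω hω h2L hA]
    group
  have hfD : fL Dw = tor chevD4 (hW chevD4 d4p2 ω) := by
    have e0 : Dw.1 1 0 = 0 := rfl
    have e1 : Dw.1 0 1 = 0 := rfl
    have := fH_of_offdiag' (h := hD) (h2 := hD2) (ax := axL) (hr := h14) e0 e1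
    rw [this]
    congr 2
    exact Units.ext rfl
  set TT := tor chevD4 (hW chevD4 d4p2 ω * y') with hTT
  have hTTe : (fL Q)⁻¹ * (fL (Matrix.SpecialLinearGroup.map ι A₀) * tor chevD4 y') * fL Q = TT := by
    rw [hTT, tor_mul, ← hfD, ← hQA, map_mul, map_mul, map_inv]
    calc (fL Q)⁻¹ * (fL (Matrix.SpecialLinearGroup.map ι A₀) * tor chevD4 y') * fL Q
        = (fL Q)⁻¹ * fL (Matrix.SpecialLinearGroup.map ι A₀) * (tor chevD4 y' * fL Q) := by group
      _ = (fL Q)⁻¹ * fL (Matrix.SpecialLinearGroup.map ι A₀) * (fL Q * tor chevD4 y') := by rw [hcomm Q]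
      _ = _ := by group
  set yL := (fL Q)⁻¹ * mu ι chevD4 y * fL Q with hyL
  have hcL : TT * yL = yL * TT := by
    have h1 : mu ι chevD4 y * (fL (Matrix.SpecialLinearGroup.map ι A₀) * tor chevD4 y') =
        (fL (Matrix.SpecialLinearGroup.map ι A₀) * tor chevD4 y') * mu ι chevD4 y := by
      rw [← hμt, ← map_mul, ← map_mul, hc]
    rw [← hTTe, hyL]
    calc _ = (fL Q)⁻¹ * ((fL (Matrix.SpecialLinearGroup.map ι A₀) * tor chevD4 y') * mu ι chevD4 y) * fL Q := by group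
      _ = (fL Q)⁻¹ * (mu ι chevD4 y * (fL (Matrix.SpecialLinearGroup.map ι A₀) * tor chevD4 y')) * fL Q := by rw [h1]
      _ = _ := by group
  have hTTH : TT ∈ chevD4.diagonalSubgroup L := by
    rw [hTT, tor_mul, ← hG_eq_tor axL hD h14, ← hμT]
    exact Subgroup.mul_mem _ (hG_mem_diagonal axL h14 ω.ne_zero)
      (mu_H ι ax axL hD (tor0_mem_H ax φ hφ hφ3 hq1 (map_one _) w₀))
  have hyLG : yL ∈ chevD4.group L :=
    Subgroup.mul_mem _ (Subgroup.mul_mem _ (Subgroup.inv_mem _ (fH_mem hD hD2 axL h14 Q)) (mu_group ι ax axL hD hFx.1))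
      (fH_mem hD hD2 axL h14 Q)
  -- the weights
  set W : Lˣ := Units.map (ι : K →* L) w₀ with hW'
  have hWo : orderOf W = 7 := by
    rw [hW', orderOf_injective _ (Units.map_injective (f := (ι : K →* L)) ι.injective), hw₀]
  have hchi : ∀ r, r < 24 → chi chevD4 (hW chevD4 d4p2 ω * y') r = ω ^ pair chevD4 d4p2 r * W ^ E 2 r := by
    intro r hr
    rw [chi_mul, chi_hW hD d4p2 ω hr]
    congr 1
    have e1 := chi_map (D := chevD4) (ι : K →+* L) (vec4 w₀ 1 (φu φ w₀) (φu φ (φu φ w₀))) r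
    rw [show chi chevD4 y' r = _ from e1, chi_e φ hφ w₀ r, map_zpow]
    rfl
  obtain ⟨u₁, hu₁, a, ha, n, hn, u₂, hu₂, e, c1, c2, c3⟩ := cent_form hD hD2 axL hTTH hyLG hcL
  have hU : ∀ {u : GL chevD4.Idx L}, u ∈ chevD4.posUnipotent L → TT * u = u * TT → u = 1 := by
    intro u hu hcu
    have h1 := mem_of_comm hD hD2 axL hu hcu
    refine eq_one_of_rootClosure_false ?_ axL h1
    rintro r ⟨hr, hr1⟩
    have hr24 : r < 24 := hr.1
    rw [hchi r hr24] at hr1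
    have h3 : ω ^ pair chevD4 d4p2 r * W ^ E 2 r = ω ^ (0 : ℤ) * W ^ (0 : ℤ) := by
      rw [hr1]
      simp
    obtain ⟨h4, h5⟩ := dvd_of_eq hωo hWo h3
    rw [sub_zero] at h4 h5
    exact reg r hr24 ⟨h4, h5⟩
  have e1 := hU hu₁ c1
  have e2 := hU (invS_le_U axL n hu₂) c3
  obtain ⟨a', ha', l, hl, en, hchi'⟩ := chi_of_comm_N hD hD2 axL hn c2
  have hw1 : wPw hD l = 1 := by
    apply word_trivial hl
    intro r hr
    have h3 := hchi' r hr
    rw [hchi r hr, hchi _ (wWord_lt hD hl hr)] at h3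
    exact dvd_of_eq hωo hWo h3.symm
  have hnwH : nw chevD4 axL l ∈ chevD4.diagonalSubgroup L :=
    (piN_eq_one_iff hD hD2 axL ⟨nw chevD4 axL l, nw_mem_monomial_aux hD hD2 axL hl⟩).mp ((piN_nw hD hD2 axL hl).trans hw1)
  have hyLH : yL ∈ chevD4.diagonalSubgroup L := by
    rw [e, e1, e2, en, one_mul, mul_one]
    exact Subgroup.mul_mem _ ha (Subgroup.mul_mem _ ha' hnwH)
  obtain ⟨c, hcc⟩ := exists_tor_of_mem axL hD hyLH
  -- the image
  have hμy : mu ι chevD4 y = fL (Q * dconj (chi chevD4 c d4p2) Q⁻¹) * tor chevD4 c := by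
    have h3 := tor_conj_fH hD hD2 axL h14 c Q⁻¹
    have h3' : tor chevD4 c * fL Q⁻¹ * (tor chevD4 c)⁻¹ = fL (dconj (chi chevD4 c d4p2) Q⁻¹) := h3
    rw [map_mul, ← h3', ← hcc, map_inv, hyL]
    group
  have hi1 : (1 : ℕ) < chevD4.rank := by decide
  have hT : tor chevD4 c ∈ chevD4.diagonalSubgroup L := hcc ▸ hyLH
  have hμy' : mu ι chevD4 y = fH hD hD2 axL (hD.simple_lt 1 hi1) (Q * dconj (chi chevD4 c d4p2) Q⁻¹) * tor chevD4 c := by
    rw [hμy, fH_congr hD hD2 axL simple1 (hD.simple_lt 1 hi1) h14]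
  obtain ⟨c', d', a'', ha'', hform⟩ := form_of_image ι hD hD2 ax axL hi1 hFx.1 hT hμy'
  rw [simple1] at hform
  rcases hform with hf | hf
  · exact inC_of_form₁ ax φ hφ hφ3 hq1 hFx.2 ha'' hf
  · exact inC_of_form₂ ax φ hφ hφ3 hq1 hFx.2 ha'' hf

end Cfsg.Agent.Lib.TorD4.Core2
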