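import Cfsg.Agent.Lib.TorD4.Fixed

/-!
The centralizer of the torus element `tor0 1 g` in `³D₄(q)`, `q ≥ 3`.
-/

set_option autoImplicit false
set_option linter.unusedSectionVars false
set_option linter.unusedVariables false
set_option linter.ambiguousOpen false

namespace Cfsg.Agent.Lib.TorD4.Core3

open scoped MatrixGroups Matrix
open Cfsg Lie ChevalleyDatum
open Cfsg.Agent.Lib.Chev
open Tables Tables2 Tables3 Raise Basic AxBasic Torus Products Products2 Mono1 Mono2 Mono3 Bn Order1 Diag SL2 SL2Chev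
open Cfsg.Agent.Lib.Twisted.Bruhat Cfsg.Agent.Lib.Twisted.D4H Cfsg.Agent.Lib.Twisted.TorusFix
open Cfsg.Agent.Lib.Twisted.Tw
open Cfsg.Agent.Lib.TorD4.Root Cfsg.Agent.Lib.TorD4.Psi Cfsg.Agent.Lib.TorD4.Final
open Cfsg.Agent.Lib.TorD4.Fixed Cfsg.Agent.Lib.TorD4.Cent

/-- The exponent of a root. -/
def E (q : ℤ) (s : ℕ) : ℤ := coef chevD4 s 0 + q * coef chevD4 s 2 + q ^ 2 * coef chevD4 s 3

/-- The arithmetic of the exponents. -/
lemma digits {q : ℤ} (hq : 3 ≤ q) {a b c : ℤ} (ha : |a| ≤ 2) (hb : |b| ≤ 2) (hc : |c| ≤ 2)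
    (hs : |a| + |b| + |c| ≤ 4) (hd : (q ^ 3 - 1) ∣ a + q * b + q ^ 2 * c) : a = 0 ∧ b = 0 ∧ c = 0 := by
  have hq0 : 0 ≤ q := by omega
  have hq2 : 0 ≤ q ^ 2 := by positivity
  have hbound : |a + q * b + q ^ 2 * c| < q ^ 3 - 1 := by
    have h1 : |a + q * b + q ^ 2 * c| ≤ |a| + q * |b| + q ^ 2 * |c| := by
      calc |a + q * b + q ^ 2 * c| ≤ |a + q * b| + |q ^ 2 * c| := abs_add_le _ _
        _ ≤ |a| + |q * b| + |q ^ 2 * c| := by gcongr; exact abs_add_le _ _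
        _ = _ := by rw [abs_mul, abs_mul, abs_of_nonneg hq0, abs_of_nonneg hq2]
    have hx := abs_nonneg a
    have hy := abs_nonneg b
    have hz := abs_nonneg c
    generalize |a| = x at *
    generalize |b| = y at *
    generalize |c| = z at *
    have h3 : x + q * y + q ^ 2 * z ≤ 2 * q + 2 * q ^ 2 := by
      have hz2 : z = 2 ∨ z ≤ 1 := by omega
      rcases hz2 with rfl | hz1
      · have : x + y ≤ 2 := by omega
        nlinarith
      · have h5 : q ^ 2 * z ≤ q ^ 2 := by nlinarith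
        have h6 : q * y ≤ 2 * q := by nlinarith
        have h7 : 2 ≤ q ^ 2 := by nlinarith
        nlinarith
    have h4 : 2 * q + 2 * q ^ 2 < q ^ 3 - 1 := by nlinarith [mul_nonneg hq0 hq0, mul_nonneg (mul_nonneg hq0 hq0) (sub_nonneg.mpr hq)]
    linarith
  have h0 : a + q * b + q ^ 2 * c = 0 := Int.eq_zero_of_abs_lt_dvd hd hbound
  have hqpos : 0 < |q| := by rw [abs_of_nonneg hq0]; omega
  have h1 : q ∣ a := by
    refine ⟨-b - q * c, ?_⟩
    linear_combination h0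
  have ha0 : a = 0 := Int.eq_zero_of_abs_lt_dvd h1 (lt_of_le_of_lt ha (by omega))
  have hq3 : q ≠ 0 := by omega
  have h2 : b + q * c = 0 := by
    apply mul_left_cancel₀ hq3
    rw [mul_zero]
    rw [ha0] at h0
    linear_combination h0
  have h5 : q ∣ b := ⟨-c, by linear_combination h2⟩
  have hb0 : b = 0 := Int.eq_zero_of_abs_lt_dvd h5 (lt_of_le_of_lt hb (by omega))
  refine ⟨ha0, hb0, ?_⟩
  rw [hb0, zero_add] at h2
  exact (mul_eq_zero.mp h2).resolve_left hq3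

theorem coef_bd : ∀ s, s < 24 → |coef chevD4 s 0| ≤ 1 ∧ |coef chevD4 s 2| ≤ 1 ∧ |coef chevD4 s 3| ≤ 1 := by
  decide +kernel

theorem class0 : ∀ s, s < 24 → coef chevD4 s 0 = 0 → coef chevD4 s 2 = 0 → coef chevD4 s 3 = 0 → s = 14 ∨ s = 9 := by
  decide +kernel

theorem class1 : ∀ s, s < 24 → coef chevD4 s 0 = 1 → coef chevD4 s 2 = 0 → coef chevD4 s 3 = 0 → s = 18 ∨ s = 19 := by
  decide +kernel

theorem class2 : ∀ s, s < 24 → coef chevD4 s 0 = 0 → coef chevD4 s 2 = 1 → coef chevD4 s 3 = 0 → s = 13 ∨ s = 16 := by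
  decide +kernel

theorem class3 : ∀ s, s < 24 → coef chevD4 s 0 = 0 → coef chevD4 s 2 = 0 → coef chevD4 s 3 = 1 → s = 12 ∨ s = 15 := by
  decide +kernel

theorem classPos : ∀ s, s < 24 → chevD4.IsPosRoot s → coef chevD4 s 0 = 0 → coef chevD4 s 2 = 0 → coef chevD4 s 3 = 0 → s = 14 := by
  decide +kernel

/-- The linear image is a root. -/
def chk (a₀ a₁ a₂ a₃ s : ℕ) : Prop :=
  ∃ s' ∈ List.range 24, ∀ j ∈ List.range 4, coef chevD4 s' j = coef chevD4 s 0 * coef chevD4 a₀ j + coef chevD4 s 1 * coef chevD4 a₁ j +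
    coef chevD4 s 2 * coef chevD4 a₂ j + coef chevD4 s 3 * coef chevD4 a₃ j

instance (a₀ a₁ a₂ a₃ s : ℕ) : Decidable (chk a₀ a₁ a₂ a₃ s) := by
  unfold chk
  exact List.decidableBEx _ _

theorem fact4 : ∀ a₀ ∈ [18, 19], ∀ a₁ ∈ [14, 9], ∀ a₂ ∈ [13, 16], ∀ a₃ ∈ [12, 15],
    chk a₀ a₁ a₂ a₃ 19 → chk a₀ a₁ a₂ a₃ 16 → chk a₀ a₁ a₂ a₃ 15 →
    (a₀ = 18 ∧ a₁ = 14 ∧ a₂ = 13 ∧ a₃ = 12) ∨ (a₀ = 19 ∧ a₁ = 9 ∧ a₂ = 16 ∧ a₃ = 15) := by
  decide +kernel

theorem simple_vals : chevD4.simple 0 = 18 ∧ chevD4.simple 1 = 14 ∧ chevD4.simple 2 = 13 ∧ chevD4.simple 3 = 12 := by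
  decide +kernel

theorem refl_vals : chevD4.reflectRoot 1 19 = 18 ∧ chevD4.reflectRoot 1 9 = 14 ∧ chevD4.reflectRoot 1 16 = 13 ∧
    chevD4.reflectRoot 1 15 = 12 := by
  decide +kernel

lemma wWord_chk {l : List ℕ} (hl : ∀ i ∈ l, i < chevD4.rank) {s : ℕ} (hs : s < 24) :
    chk (wWord chevD4 l 18) (wWord chevD4 l 14) (wWord chevD4 l 13) (wWord chevD4 l 12) s := by
  refine ⟨wWord chevD4 l s, List.mem_range.mpr (wWord_lt hD hl hs), fun j hj => ?_⟩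
  rw [coef_wWord hD hl hs (List.mem_range.mp hj), rank_D4]
  obtain ⟨e0, e1, e2, e3⟩ := simple_vals
  simp only [Finset.sum_range_succ, Finset.sum_range_zero, zero_add, e0, e1, e2, e3]

/-- The classification of the words commuting with the element. -/
theorem word_cases {l : List ℕ} (hl : ∀ i ∈ l, i < chevD4.rank)
    (h₀ : coef chevD4 (wWord chevD4 l 18) 0 = 1 ∧ coef chevD4 (wWord chevD4 l 18) 2 = 0 ∧ coef chevD4 (wWord chevD4 l 18) 3 = 0)
    (h₁ : coef chevD4 (wWord chevD4 l 14) 0 = 0 ∧ coef chevD4 (wWord chevD4 l 14) 2 = 0 ∧ coef chevD4 (wWord chevD4 l 14) 3 = 0)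
    (h₂ : coef chevD4 (wWord chevD4 l 13) 0 = 0 ∧ coef chevD4 (wWord chevD4 l 13) 2 = 1 ∧ coef chevD4 (wWord chevD4 l 13) 3 = 0)
    (h₃ : coef chevD4 (wWord chevD4 l 12) 0 = 0 ∧ coef chevD4 (wWord chevD4 l 12) 2 = 0 ∧ coef chevD4 (wWord chevD4 l 12) 3 = 1) :
    wPw hD l = 1 ∨ wPw hD l = wP hD 1 := by
  have hlt : ∀ {s : ℕ}, s < 24 → wWord chevD4 l s < 24 := fun hs => wWord_lt hD hl hs
  have a₀ := class1 _ (hlt (by norm_num)) h₀.1 h₀.2.1 h₀.2.2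
  have a₁ := class0 _ (hlt (by norm_num)) h₁.1 h₁.2.1 h₁.2.2
  have a₂ := class2 _ (hlt (by norm_num)) h₂.1 h₂.2.1 h₂.2.2
  have a₃ := class3 _ (hlt (by norm_num)) h₃.1 h₃.2.1 h₃.2.2
  have hc := fact4 _ (by simpa using a₀) _ (by simpa using a₁) _ (by simpa using a₂) _ (by simpa using a₃)
    (wWord_chk hl (by norm_num)) (wWord_chk hl (by norm_num)) (wWord_chk hl (by norm_num))
  obtain ⟨e0, e1, e2, e3⟩ := simple_vals
  rcases hc with ⟨b0, b1, b2, b3⟩ | ⟨b0, b1, b2, b3⟩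
  · left
    apply wPw_eq_one_of_simple hD hD2 hl
    intro k hk
    have hk4 : k < 4 := hk
    interval_cases k
    · rw [e0]; exact b0
    · rw [e1]; exact b1
    · rw [e2]; exact b2
    · rw [e3]; exact b3
  · right
    have hl' : ∀ i ∈ (1 :: l), i < chevD4.rank := by
      intro i hi
      rcases List.mem_cons.mp hi with rfl | hi
      · decide
      · exact hl i hi
    obtain ⟨r0, r1, r2, r3⟩ := refl_vals
    have h1 : wPw hD (1 :: l) = 1 := by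
      apply wPw_eq_one_of_simple hD hD2 hl'
      intro k hk
      have hk4 : k < 4 := hk
      have ew : ∀ s, wWord chevD4 (1 :: l) s = chevD4.reflectRoot 1 (wWord chevD4 l s) := fun s => rfl
      rw [ew]
      interval_cases k
      · rw [e0, b0]; exact r0
      · rw [e1, b1]; exact r1
      · rw [e2, b2]; exact r2
      · rw [e3, b3]; exact r3
    rw [wPw_cons] at h1
    have h2 := wP_mul_self hD 1
    exact mul_left_cancel (h1.trans h2.symm)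

variable {K : Type*} [Field K] [Finite K] {q : ℕ} (ax : Ax chevD4 K) (φ : K ≃+* K) (hφ : ∀ t, φ t = t ^ q)
  (hφ3 : ∀ t, φ (φ (φ t)) = t) (hq1 : 1 ≤ q)

include hφ in
/-- The weights of the element. -/
lemma chi_e (g : Kˣ) (s : ℕ) :
    chi chevD4 (vec4 g 1 (φu φ g) (φu φ (φu φ g))) s = g ^ E (q : ℤ) s := by
  have e1 : φu φ g = g ^ q := by
    apply Units.ext
    rw [φu_coe, hφ, Units.val_pow_eq_pow_val]
  have e2 : φu φ (φu φ g) = g ^ (q ^ 2) := by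
    rw [e1, map_pow, e1, ← pow_mul, pow_two]
  rw [chi_eq]
  show g ^ coef chevD4 s 0 * 1 ^ coef chevD4 s 1 * (φu φ g) ^ coef chevD4 s 2 * (φu φ (φu φ g)) ^ coef chevD4 s 3 = _
  rw [e2, e1, one_zpow, mul_one, E, zpow_add, zpow_add, ← zpow_natCast, ← zpow_natCast, ← zpow_mul, ← zpow_mul]
  push_cast
  rfl

variable {g : Kˣ} (hord : orderOf g = q ^ 3 - 1)

include hφ hord hq1 in
lemma dvd_of_chi {s s' : ℕ}
    (he : chi chevD4 (vec4 g 1 (φu φ g) (φu φ (φu φ g))) s = chi chevD4 (vec4 g 1 (φu φ g) (φu φ (φu φ g))) s') :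
    ((q : ℤ) ^ 3 - 1) ∣ (coef chevD4 s' 0 - coef chevD4 s 0) + (q : ℤ) * (coef chevD4 s' 2 - coef chevD4 s 2) +
      (q : ℤ) ^ 2 * (coef chevD4 s' 3 - coef chevD4 s 3) := by
  rw [chi_e φ hφ, chi_e φ hφ, zpow_eq_zpow_iff_modEq, hord, Int.modEq_iff_dvd] at he
  have hc : ((q ^ 3 - 1 : ℕ) : ℤ) = (q : ℤ) ^ 3 - 1 := by
    rw [Nat.cast_sub (Nat.one_le_pow _ _ (by omega))]
    simp
  rw [hc] at he
  have e : E (q : ℤ) s' - E (q : ℤ) s = (coef chevD4 s' 0 - coef chevD4 s 0) + (q : ℤ) * (coef chevD4 s' 2 - coef chevD4 s 2) +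
      (q : ℤ) ^ 2 * (coef chevD4 s' 3 - coef chevD4 s 3) := by
    simp only [E]
    ring
  rw [← e]
  exact he

lemma abs_sub_le_aux {x y : ℤ} (hx : |x| ≤ 1) (hy : |y| ≤ 1) : |x - y| ≤ 2 := by
  have := abs_sub x y
  linarith

include hφ hord hq1 in
/-- Equality of weights with a fundamental root fixes three coordinates. -/
lemma coords_of_chi (hq3 : 3 ≤ q) {s s' : ℕ} (hs : s < 24) (hs' : s' < 24)
    (hsum : |coef chevD4 s 0| + |coef chevD4 s 2| + |coef chevD4 s 3| ≤ 1)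
    (he : chi chevD4 (vec4 g 1 (φu φ g) (φu φ (φu φ g))) s = chi chevD4 (vec4 g 1 (φu φ g) (φu φ (φu φ g))) s') :
    coef chevD4 s' 0 = coef chevD4 s 0 ∧ coef chevD4 s' 2 = coef chevD4 s 2 ∧ coef chevD4 s' 3 = coef chevD4 s 3 := by
  have hd := dvd_of_chi φ hφ hq1 hord he
  obtain ⟨b1, b2, b3⟩ := coef_bd s hs
  obtain ⟨b1', b2', b3'⟩ := coef_bd s' hs'
  have hq3' : (3 : ℤ) ≤ (q : ℤ) := by exact_mod_cast hq3
  have key : |coef chevD4 s' 0 - coef chevD4 s 0| + |coef chevD4 s' 2 - coef chevD4 s 2| + |coef chevD4 s' 3 - coef chevD4 s 3| ≤ 4 := by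
    have h1 := abs_sub (coef chevD4 s' 0) (coef chevD4 s 0)
    have h2 := abs_sub (coef chevD4 s' 2) (coef chevD4 s 2)
    have h3 := abs_sub (coef chevD4 s' 3) (coef chevD4 s 3)
    linarith
  obtain ⟨h1, h2, h3⟩ := digits hq3' (abs_sub_le_aux b1' b1) (abs_sub_le_aux b2' b2) (abs_sub_le_aux b3' b3) key hd
  exact ⟨sub_eq_zero.mp h1, sub_eq_zero.mp h2, sub_eq_zero.mp h3⟩

theorem simple_coords : coef chevD4 18 0 = 1 ∧ coef chevD4 18 2 = 0 ∧ coef chevD4 18 3 = 0 ∧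
    coef chevD4 14 0 = 0 ∧ coef chevD4 14 2 = 0 ∧ coef chevD4 14 3 = 0 ∧
    coef chevD4 13 0 = 0 ∧ coef chevD4 13 2 = 1 ∧ coef chevD4 13 3 = 0 ∧
    coef chevD4 12 0 = 0 ∧ coef chevD4 12 2 = 0 ∧ coef chevD4 12 3 = 1 := by
  decide +kernel

include hφ hφ3 hq1 hord in
/-- The centralizer of the element for `q ≥ 3`. -/
theorem core3 (hq3 : 3 ≤ q) {y : GL chevD4.Idx K} (hy : y ∈ twistedD4 K q)
    (hc : tor0 φ 1 g * y = y * tor0 φ 1 g) : InC ax φ y := by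
  have hFx := G1_le ax φ hφ hφ3 hy
  have hT : tor0 φ 1 g ∈ chevD4.diagonalSubgroup K := tor0_mem_H ax φ hφ hφ3 hq1 (map_one _) g
  obtain ⟨u₁, hu₁, a, ha, n, hn, u₂, hu₂, e, c1, c2, c3⟩ := cent_form hD hD2 ax hT hFx.1 hc
  -- the unipotent parts
  have hU : ∀ {u : GL chevD4.Idx K}, u ∈ chevD4.posUnipotent K → tor0 φ 1 g * u = u * tor0 φ 1 g →
      ∃ t, u = xG ax d4p2 t := by
    intro u hu hcu
    have h1 := mem_of_comm hD hD2 ax hu hcu
    have hle : rootClosure ax (fun r => chevD4.IsPosRoot r ∧ chi chevD4 (vec4 g 1 (φu φ g) (φu φ (φu φ g))) r = 1) ≤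
        rootClosure ax (· = d4p2) := by
      apply rootClosure_mono
      rintro r ⟨hr, hr1⟩
      have hr24 : r < 24 := hr.1
      have e4 : chi chevD4 (vec4 g 1 (φu φ g) (φu φ (φu φ g))) 14 = 1 := by
        have := chi14 (vec4 g 1 (φu φ g) (φu φ (φu φ g)))
        exact this
      obtain ⟨z1, z2, z3, z4, z5, z6, -⟩ := simple_coords
      have h3 := coords_of_chi φ hφ hq1 hord hq3 (s := 14) (s' := r) (by norm_num) hr24
        (by rw [z4, z5, z6]; norm_num) (e4.trans hr1.symm)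
      rw [z4, z5, z6] at h3
      exact classPos r hr24 hr h3.1 h3.2.1 h3.2.2
    exact mem_rootSubgroup hD ax (hle h1)
  obtain ⟨c, rfl⟩ := hU hu₁ c1
  obtain ⟨d, rfl⟩ := hU (invS_le_U ax n hu₂) c3
  -- the monomial part
  obtain ⟨a', ha', l, hl, rfl, hchi⟩ := chi_of_comm_N hD hD2 ax hn c2
  obtain ⟨z1, z2, z3, z4, z5, z6, z7, z8, z9, z10, z11, z12⟩ := simple_coords
  have hco : ∀ {s : ℕ}, s < 24 → |coef chevD4 s 0| + |coef chevD4 s 2| + |coef chevD4 s 3| ≤ 1 →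
      coef chevD4 (wWord chevD4 l s) 0 = coef chevD4 s 0 ∧ coef chevD4 (wWord chevD4 l s) 2 = coef chevD4 s 2 ∧
        coef chevD4 (wWord chevD4 l s) 3 = coef chevD4 s 3 := by
    intro s hs hsum
    exact coords_of_chi φ hφ hq1 hord hq3 hs (wWord_lt hD hl hs) hsum (hchi s hs).symm
  have h₀ := hco (s := 18) (by norm_num) (by rw [z1, z2, z3]; norm_num)
  have h₁ := hco (s := 14) (by norm_num) (by rw [z4, z5, z6]; norm_num)
  have h₂ := hco (s := 13) (by norm_num) (by rw [z7, z8, z9]; norm_num)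
  have h₃ := hco (s := 12) (by norm_num) (by rw [z10, z11, z12]; norm_num)
  rw [z1, z2, z3] at h₀
  rw [z4, z5, z6] at h₁
  rw [z7, z8, z9] at h₂
  rw [z10, z11, z12] at h₃
  have hsy : (twD φ ax).s y = y := hFx.2
  rcases word_cases hl h₀ h₁ h₂ h₃ with hw | hw
  · have hm : nw chevD4 ax l ∈ chevD4.diagonalSubgroup K := by
      have := (piN_eq_one_iff hD hD2 ax ⟨nw chevD4 ax l, nw_mem_monomial_aux hD hD2 ax hl⟩).mp
        ((piN_nw hD hD2 ax hl).trans hw)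
      exact this
    refine inC_of_form₁ ax φ hφ hφ3 hq1 hsy (a := a * (a' * nw chevD4 ax l))
      (Subgroup.mul_mem _ ha (Subgroup.mul_mem _ ha' hm)) (c := c) (d := d) ?_
    rw [e]
    group
  · have hi1 : (1 : ℕ) < chevD4.rank := by decide
    have hsN : sG ax 1 ∈ chevD4.monomialSubgroup K := sG_mem_monomial hD hD2 ax hi1
    obtain ⟨c0, H0⟩ := exists_isNor_sG hD ax hD2 (F := K) hi1
    have hpi : piN hD hD2 ax ⟨sG ax 1, hsN⟩ = wP hD 1 := by
      rw [piN_of_isNor hD hD2 ax (g := ⟨sG ax 1, hsN⟩) H0, wP_of_lt hD hi1]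
    have hm : nw chevD4 ax l * (sG ax 1)⁻¹ ∈ chevD4.diagonalSubgroup K := by
      have := (piN_eq_one_iff hD hD2 ax (⟨nw chevD4 ax l, nw_mem_monomial_aux hD hD2 ax hl⟩ * ⟨sG ax 1, hsN⟩⁻¹)).mp (by
        rw [map_mul, map_inv, hpi, piN_nw hD hD2 ax hl, hw, mul_inv_cancel])
      exact this
    refine inC_of_form₂ ax φ hφ hφ3 hq1 hsy (a := a * (a' * (nw chevD4 ax l * (sG ax 1)⁻¹)))
      (Subgroup.mul_mem _ ha (Subgroup.mul_mem _ ha' hm)) (c := c) (d := d) ?_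
    rw [e]
    group

end Cfsg.Agent.Lib.TorD4.Core3
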