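import Cfsg.Agent.Lib.TorD4.Psi

/-!
From the data of a Singer cycle and the description of the centralizer to the self-centralizing cyclic
subgroup of `³D₄(q)`.
-/

set_option autoImplicit false
set_option linter.unusedSectionVars false
set_option linter.unusedVariables false
set_option linter.ambiguousOpen false

namespace Cfsg.Agent.Lib.TorD4.Final

open scoped MatrixGroups Matrix
open Cfsg Lie ChevalleyDatum
open Cfsg.Agent.Lib.Chev
open Tables Tables2 Tables3 Raise Basic AxBasic Torus Products Products2 Mono1 Mono2 Mono3 Bn Diag SL2 SL2Chev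
open Cfsg.Agent.Lib.Twisted.Bruhat Cfsg.Agent.Lib.Twisted.D4H Cfsg.Agent.Lib.Twisted.TorusFix
open Cfsg.Agent.Lib.TorD4.Root Cfsg.Agent.Lib.TorD4.Psi

variable {K : Type*} [Field K] [Finite K] {q : ℕ} (ax : Ax chevD4 K) (φ : K ≃+* K) (hφ : ∀ t, φ t = t ^ q)
  (hφ3 : ∀ t, φ (φ (φ t)) = t) (hq1 : 1 ≤ q)

lemma fixed_mul {Z Z' : GL (Fin 2) K} (hZ : ∀ i j, φ (Z.1 i j) = Z.1 i j) (hZ' : ∀ i j, φ (Z'.1 i j) = Z'.1 i j) :
    ∀ i j, φ ((Z * Z').1 i j) = (Z * Z').1 i j := by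
  intro i j
  rw [Units.val_mul, Matrix.mul_apply, Fin.sum_univ_two, map_add, map_mul, map_mul, hZ, hZ, hZ', hZ']

lemma fixed_one : ∀ i j, φ ((1 : GL (Fin 2) K).1 i j) = (1 : GL (Fin 2) K).1 i j := by
  intro i j
  by_cases hij : i = j
  · subst hij
    simp
  · simp [Matrix.one_apply, hij]

lemma fixed_pow {Z : GL (Fin 2) K} (hZ : ∀ i j, φ (Z.1 i j) = Z.1 i j) (m : ℕ) :
    ∀ i j, φ ((Z ^ m).1 i j) = (Z ^ m).1 i j := by
  induction m with
  | zero => simp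
  | succ m ih =>
    rw [pow_succ]
    exact fixed_mul φ ih hZ

lemma tor0_pow (g : Kˣ) (l : ℕ) : tor0 φ 1 g ^ l = tor0 φ 1 (g ^ l) := by
  induction l with
  | zero => simp [tor0_one]
  | succ l ih => rw [pow_succ, ih, tor0_mul, pow_succ, one_mul]

lemma tor0_eq_one {g : Kˣ} (he : tor0 φ 1 g = 1) : g = 1 := by
  rw [tor0, ← tor_one, tor_eq_iff hD] at he
  exact he 0 (by decide)

include hφ hφ3 hq1 in
/-- The power of the element of the cyclic subgroup which is a diagonal element. -/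
theorem t_pow (Z₀ : GL (Fin 2) K) (g : Kˣ)
    (hfix : ∀ i j, φ (Z₀.1 i j) = Z₀.1 i j)
    (hpow : (Z₀ ^ (q + 1)).1 = (Matrix.GeneralLinearGroup.det Z₀ : K) • (1 : Matrix (Fin 2) (Fin 2) K))
    (hnorm : g ^ (q ^ 2 + q + 1) = Matrix.GeneralLinearGroup.det Z₀) :
    Ψ ax φ (Z₀, (g ^ q)⁻¹) ^ (q + 1) = tor0 φ 1 g := by
  rw [← map_pow, Prod.pow_mk, Ψ_scalar ax φ hpow (det_fixed φ hfix)]
  congr 1
  rw [← hnorm, inv_pow, ← pow_mul, show q ^ 2 + q + 1 = q * (q + 1) + 1 by ring, pow_succ]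
  group

variable {ax φ}

include hφ hφ3 hq1 in
theorem main_of_core (hq2 : 2 ≤ q) (Z₀ : GL (Fin 2) K) (g : Kˣ)
    (hfix : ∀ i j, φ (Z₀.1 i j) = Z₀.1 i j)
    (hord : orderOf g = q ^ 3 - 1)
    (hcard : Nat.card Kˣ = q ^ 3 - 1)
    (hpow : (Z₀ ^ (q + 1)).1 = (Matrix.GeneralLinearGroup.det Z₀ : K) • (1 : Matrix (Fin 2) (Fin 2) K))
    (hnorm : g ^ (q ^ 2 + q + 1) = Matrix.GeneralLinearGroup.det Z₀)
    (hsc : ∀ (m : ℕ) (c : K), (Z₀ ^ m).1 = c • (1 : Matrix (Fin 2) (Fin 2) K) → q + 1 ∣ m)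
    (hcomm : ∀ W : GL (Fin 2) K, (∀ i j, φ (W.1 i j) = W.1 i j) → W * Z₀ = Z₀ * W → ∃ i : ℕ, W = Z₀ ^ i)
    (core : ∀ y ∈ twistedD4 K q, y * Ψ ax φ (Z₀, (g ^ q)⁻¹) = Ψ ax φ (Z₀, (g ^ q)⁻¹) * y →
      ∃ (Z : GL (Fin 2) K) (w : Kˣ), (∀ i j, φ (Z.1 i j) = Z.1 i j) ∧ y = Ψ ax φ (Z, w)) :
    ∃ H : Subgroup ↥(twistedD4 K q), IsCyclic ↥H ∧ Nat.card ↥H = (q ^ 3 - 1) * (q + 1) ∧
      Subgroup.centralizer (H : Set ↥(twistedD4 K q)) = H := by
  classical
  set w₀ : Kˣ := (g ^ q)⁻¹ with hw₀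
  set t := Ψ ax φ (Z₀, w₀) with ht
  have htG : t ∈ twistedD4 K q := Ψ_mem ax φ hφ hφ3 hq1 hfix w₀
  have htpow : ∀ m : ℕ, t ^ m = Ψ ax φ (Z₀ ^ m, w₀ ^ m) := by
    intro m
    rw [ht, ← map_pow, Prod.pow_mk]
  -- the power
  have he : t ^ (q + 1) = tor0 φ 1 g := by
    rw [htpow, Ψ_scalar ax φ hpow (det_fixed φ hfix)]
    congr 1
    rw [← hnorm, hw₀, inv_pow, ← pow_mul, show q ^ 2 + q + 1 = q * (q + 1) + 1 by ring, pow_succ]
    group
  have hepow : ∀ l : ℕ, t ^ ((q + 1) * l) = tor0 φ 1 (g ^ l) := by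
    intro l
    rw [pow_mul, he, tor0_pow]
  -- the order
  have hordt : orderOf t = (q ^ 3 - 1) * (q + 1) := by
    apply Nat.dvd_antisymm
    · apply orderOf_dvd_of_pow_eq_one
      rw [mul_comm, hepow, ← hord, pow_orderOf_eq_one, tor0_one]
    · have h1 := pow_orderOf_eq_one t
      rw [htpow] at h1
      obtain ⟨h3, -⟩ := ker_Ψ ax φ hφ hφ3 hq1 (fixed_pow φ hfix _) h1
      obtain ⟨l, hl⟩ := hsc _ _ h3
      have h4 := pow_orderOf_eq_one t
      rw [hl, hepow] at h4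
      have h5 := tor0_eq_one φ h4
      have h6 := orderOf_dvd_of_pow_eq_one h5
      rw [hord] at h6
      rw [hl, mul_comm]
      exact Nat.mul_dvd_mul_left _ h6
  let tt : ↥(twistedD4 K q) := ⟨t, htG⟩
  have hordtt : orderOf tt = orderOf t := Subgroup.orderOf_mk t htG
  refine ⟨Subgroup.zpowers tt, inferInstance, ?_, ?_⟩
  · rw [Nat.card_zpowers, hordtt, hordt]
  · apply le_antisymm
    · intro y hy
      have hc : y * tt = tt * y := by
        have := (Subgroup.mem_centralizer_iff.mp hy) tt (Subgroup.mem_zpowers tt)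
        exact this.symm
      have hc' : y.1 * t = t * y.1 := congrArg Subtype.val hc
      obtain ⟨Z, w, hZ, hy'⟩ := core y.1 y.2 hc'
      have hcm : Z * Z₀ = Z₀ * Z := by
        apply comm_of_Ψ ax φ (w := w) (w' := w₀)
        rw [← hy', ← ht]
        exact hc'
      obtain ⟨i, rfl⟩ := hcomm Z hZ hcm
      -- the unit part
      have hgen : ∀ x : Kˣ, ∃ j : ℕ, g ^ j = x := by
        have hz : ∀ x, x ∈ Subgroup.zpowers g := by
          have h3 : Nat.card (Subgroup.zpowers g) = Nat.card Kˣ := by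
            rw [Nat.card_zpowers, hord, hcard]
          have h4 : Subgroup.zpowers g = ⊤ := Subgroup.eq_top_of_card_eq _ h3
          intro x
          rw [h4]
          exact Subgroup.mem_top x
        intro x
        obtain ⟨j, hj⟩ := hz x
        refine ⟨(j % orderOf g).toNat, ?_⟩
        have hpos : 0 < orderOf g := orderOf_pos g
        have h2 : (0 : ℤ) ≤ j % (orderOf g : ℤ) := Int.emod_nonneg _ (by exact_mod_cast hpos.ne')
        rw [← zpow_natCast, Int.toNat_of_nonneg h2, zpow_mod_orderOf]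
        exact hj
      obtain ⟨j, hj⟩ := hgen (w * (w₀ ^ i)⁻¹)
      have hy2 : y.1 = t ^ (i + (q + 1) * j) := by
        rw [pow_add, hepow, hj, htpow, hy', ← Ψ_one_left ax φ, ← map_mul, Prod.mk_mul_mk, mul_one]
        congr 2
        rw [mul_comm w, mul_inv_cancel_left]
      refine ⟨((i + (q + 1) * j : ℕ) : ℤ), Subtype.ext ?_⟩
      simp only [zpow_natCast]
      rw [hy2]
      simp [tt]
    · rintro _ ⟨k, rfl⟩
      rw [Subgroup.mem_centralizer_iff]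
      rintro _ ⟨l, rfl⟩
      exact (zpow_mul_comm tt l k)

end Cfsg.Agent.Lib.TorD4.Final
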