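import Cfsg.Agent.Lib.TorD4.Final

/-!
Elements of the fixed points of the twist of the shape `x(c) a n x(d)`, and the range of `Ψ`.
-/

set_option autoImplicit false
set_option linter.unusedSectionVars false
set_option linter.unusedVariables false
set_option linter.ambiguousOpen false

namespace Cfsg.Agent.Lib.TorD4.Fixed

open scoped MatrixGroups Matrix
open Cfsg Lie ChevalleyDatum
open Cfsg.Agent.Lib.Chev
open Tables Tables2 Tables3 Raise Basic AxBasic Torus Products Products2 Mono1 Mono2 Mono3 Bn Diag SL2 SL2Chev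
open Cfsg.Agent.Lib.Twisted.Bruhat Cfsg.Agent.Lib.Twisted.D4H Cfsg.Agent.Lib.Twisted.TorusFix
open Cfsg.Agent.Lib.Twisted.Tw
open Cfsg.Agent.Lib.TorD4.Root Cfsg.Agent.Lib.TorD4.Psi Cfsg.Agent.Lib.TorD4.Final

variable {K : Type*} [Field K] [Finite K] {q : ℕ} (ax : Ax chevD4 K) (φ : K ≃+* K) (hφ : ∀ t, φ t = t ^ q)
  (hφ3 : ∀ t, φ (φ (φ t)) = t) (hq1 : 1 ≤ q)

/-- The range of `Ψ` on fixed matrices. -/
def InC (ax : Ax chevD4 K) (φ : K ≃+* K) (y : GL chevD4.Idx K) : Prop :=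
  ∃ (Z : GL (Fin 2) K) (w : Kˣ), (∀ i j, φ (Z.1 i j) = Z.1 i j) ∧ y = Ψ ax φ (Z, w)

variable {ax φ}

lemma InC.mul {y y' : GL chevD4.Idx K} (h : InC ax φ y) (h' : InC ax φ y') : InC ax φ (y * y') := by
  obtain ⟨Z, w, hZ, rfl⟩ := h
  obtain ⟨Z', w', hZ', rfl⟩ := h'
  refine ⟨Z * Z', w * w', fixed_mul φ hZ hZ', ?_⟩
  rw [← map_mul, Prod.mk_mul_mk]

variable (ax φ)

lemma nSL_toGL (M : SL(2, K)) : nSL (Matrix.SpecialLinearGroup.toGL M) = M := by
  have hd : ((Matrix.GeneralLinearGroup.det (Matrix.SpecialLinearGroup.toGL M) : Kˣ) : K) = 1 := M.2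
  apply Subtype.ext
  ext i j
  fin_cases i <;> fin_cases j <;> simp [nSL, hd]

lemma inC_f {M : SL(2, K)} (hM : ∀ i j, φ (M.1 i j) = M.1 i j) : InC ax φ (f ax M) := by
  refine ⟨Matrix.SpecialLinearGroup.toGL M, 1, hM, ?_⟩
  rw [Ψ_apply, nSL_toGL]
  have hd : Matrix.GeneralLinearGroup.det (Matrix.SpecialLinearGroup.toGL M) = 1 := Units.ext M.2
  rw [hd, tor0_one, mul_one]

lemma inC_x {c : K} (hc : φ c = c) : InC ax φ (xG ax d4p2 c) := by
  have : xG ax d4p2 c = f ax (upM c) := (phiHom_up (rankOneRel hD hD2 ax h14) c).symm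
  rw [this]
  apply inC_f
  intro i j
  fin_cases i <;> fin_cases j <;> simp [upM, hc]

theorem simple1 : chevD4.simple 1 = d4p2 := by decide +kernel

lemma inC_n : InC ax φ (sG ax 1) := by
  have hm1 : (1 : K) ≠ 0 := one_ne_zero
  have : sG ax 1 = f ax (wM 1 hm1) := by
    have e := phiF_w (rankOneRel hD hD2 ax h14) 1 hm1 (1 : SL(2, K))
    rw [mul_one, phiF_one (rankOneRel hD hD2 ax h14), mul_one] at e
    rw [sG, simple1]
    exact e.symm
  rw [this]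
  apply inC_f
  intro i j
  fin_cases i <;> fin_cases j <;> simp [wM]

lemma inC_tor0 (A B : Kˣ) (hA : φu φ A = A) : InC ax φ (tor0 φ A B) := by
  let D : GL (Fin 2) K := Matrix.GeneralLinearGroup.mkOfDetNeZero !![(A : K), 0; 0, 1] (by
    rw [Matrix.det_fin_two]
    simp)
  have h0 : φ (A : K) = A := congrArg Units.val hA
  refine ⟨D, B, ?_, ?_⟩
  · intro i j
    fin_cases i <;> fin_cases j <;> simp [D, Matrix.GeneralLinearGroup.mkOfDetNeZero, h0]
  · have hd : Matrix.GeneralLinearGroup.det D = A := by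
      apply Units.ext
      show Matrix.det !![(A : K), 0; 0, 1] = _
      rw [Matrix.det_fin_two]
      simp
    have hn : nSL D = 1 := by
      have hA0 := A.ne_zero
      apply Subtype.ext
      ext i j
      show (!![D.1 0 0 / ((Matrix.GeneralLinearGroup.det D : Kˣ) : K), D.1 0 1;
        D.1 1 0 / ((Matrix.GeneralLinearGroup.det D : Kˣ) : K), D.1 1 1] : Matrix _ _ _) i j = _
      rw [hd]
      have e00 : D.1 0 0 = A := rfl
      have e01 : D.1 0 1 = 0 := rfl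
      have e10 : D.1 1 0 = 0 := rfl
      have e11 : D.1 1 1 = 1 := rfl
      rw [e00, e01, e10, e11]
      fin_cases i <;> fin_cases j <;> simp [hA0]
    rw [Ψ_apply, hn, map_one, one_mul, hd]

include hφ hφ3 hq1 in
/-- A fixed diagonal element. -/
theorem exists_tor0 {a : GL chevD4.Idx K} (ha : a ∈ chevD4.diagonalSubgroup K) (hs : (twD φ ax).s a = a) :
    ∃ A B : Kˣ, φu φ A = A ∧ a = tor0 φ A B := by
  obtain ⟨c, rfl⟩ := exists_psi hD hD2 ax ha
  rw [s_psi] at hs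
  obtain ⟨c', e, h0, h2, h3, h1⟩ := exists_symm φ hs.symm
  let x : Fq K q × Kˣ := (⟨c' 1, mem_of_φu φ hφ hq1 h1⟩, c' 0)
  have e2 : tor chevD4 (psi chevD4 c) = Φ (q := q) φ x := by
    rw [Φ_apply, e]
    congr 1
    apply psi_congr
    intro i hi
    interval_cases i
    · rfl
    · rfl
    · exact h0.symm
    · exact ((congrArg (φu φ) h0).trans h2).symm
  rw [e2, Φ_eq_tor0 φ hφ hφ3 hq1]
  refine ⟨_, _, ?_, rfl⟩
  have hx1 : φu φ (x.1 : Kˣ) = x.1 := φu_of_mem φ hφ hq1 x.1.2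
  obtain ⟨-, h1', -, -⟩ := psi_D4 (cHom φ x)
  have e0 : cHom φ x 0 = x.2 := rfl
  have e1 : cHom φ x 1 = (x.1 : Kˣ) := rfl
  have e2' : cHom φ x 2 = φu φ x.2 := rfl
  have e3 : cHom φ x 3 = φu φ (φu φ x.2) := rfl
  rw [h1', e0, e1, e2', e3]
  simp only [map_mul, map_pow, map_inv, hx1, φu_φu_φu φ _ hφ3]
  ac_rfl

theorem rho14 : Sd.ρ d4p2 = d4p2 ∧ Sd.γ d4p2 = 1 := by decide +kernel
theorem rho9 : Sd.ρ (chevD4.neg d4p2) = chevD4.neg d4p2 ∧ Sd.γ (chevD4.neg d4p2) = 1 := by decide +kernel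

lemma s_x14 (t : K) : (twD φ ax).s (xG ax d4p2 t) = xG ax d4p2 (φ t) :=
  s_xD φ ax h14 rho14.1 rho14.2 t

lemma s_y14 (t : K) : (twD φ ax).s (xG ax (chevD4.neg d4p2) t) = xG ax (chevD4.neg d4p2) (φ t) :=
  s_xD φ ax (hD.neg_lt _ h14) rho9.1 rho9.2 t

lemma x_mem (t : K) : xG ax d4p2 t ∈ chevD4.group K := xG_mem_group ax h14 t
lemma y_mem (t : K) : xG ax (chevD4.neg d4p2) t ∈ chevD4.group K := xG_mem_group ax (hD.neg_lt _ h14) t

lemma sG_mem : sG ax 1 ∈ chevD4.group K := by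
  rw [sG, simple1]
  exact nG_mem_group hD ax h14 1

lemma s_sG : (twD φ ax).s (sG ax 1) = sG ax 1 := by
  rw [sG, simple1]
  simp only [nG]
  rw [(twD φ ax).s_mul _ (Subgroup.mul_mem _ (x_mem ax _) (y_mem ax _)) _ (x_mem ax _),
    (twD φ ax).s_mul _ (x_mem ax _) _ (y_mem ax _), s_x14, s_y14, map_one]
  congr 2
  simp

/-- The Borel part of the uniqueness. -/
lemma borel_unique {c c' : K} {a a' : GL chevD4.Idx K} (ha : a ∈ chevD4.diagonalSubgroup K)
    (ha' : a' ∈ chevD4.diagonalSubgroup K) (he : xG ax d4p2 c * a = xG ax d4p2 c' * a') : c = c' ∧ a = a' := by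
  have e1 : (xG ax d4p2 c')⁻¹ * xG ax d4p2 c = a' * a⁻¹ := by
    calc (xG ax d4p2 c')⁻¹ * xG ax d4p2 c = (xG ax d4p2 c')⁻¹ * (xG ax d4p2 c * a) * a⁻¹ := by group
      _ = (xG ax d4p2 c')⁻¹ * (xG ax d4p2 c' * a') * a⁻¹ := by rw [he]
      _ = _ := by group
  have hU : ∀ t, xG ax d4p2 t ∈ chevD4.posUnipotent K := fun t => by
    rw [posUnipotent_eq ax]
    exact xG_mem_rootClosure ax pos14 t
  have h4 : (xG ax d4p2 c')⁻¹ * xG ax d4p2 c ∈ chevD4.posUnipotent K ⊓ chevD4.diagonalSubgroup K := by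
    refine ⟨Subgroup.mul_mem _ (Subgroup.inv_mem _ (hU _)) (hU _), ?_⟩
    rw [e1]
    exact Subgroup.mul_mem _ ha' (Subgroup.inv_mem _ ha)
  rw [U_inf_H ax hD, Subgroup.mem_bot] at h4
  have h5 : xG ax d4p2 c' = xG ax d4p2 c := inv_mul_eq_one.mp h4
  have h6 : a = a' := by
    rw [h5] at he
    exact mul_left_cancel he
  refine ⟨?_, h6⟩
  by_contra hne
  have hne' : c - c' ≠ 0 := sub_ne_zero.mpr hne
  have e2 : xG ax d4p2 (c - c') = xG ax d4p2 0 := by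
    rw [sub_eq_add_neg, ← xG_add, ← xG_inv, ← h5, xG_zero]
    group
  exact hne' (xG_eq_iff ax hD hD2 h14 h14 hne' e2).2

lemma x_mem_invS (d : K) : xG ax d4p2 d ∈ invS chevD4 K (sG ax 1) := by
  refine Subgroup.subset_closure ⟨d4p2, d, pos14, ?_, xG_val ax _ _⟩
  rw [Subgroup.map_le_iff_le_comap, rootSubgroup_eq ax]
  apply rootClosure_le
  rintro s w rfl
  simp only [Subgroup.mem_comap, MulEquiv.coe_toMonoidHom, MulAut.conj_apply]
  rw [sG, simple1, (rel_all hD hD2 ax h14).1 1 w one_ne_zero, negUnipotent_eq ax]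
  exact xG_mem_rootClosure ax (by decide +kernel) _

include hφ hφ3 hq1 in
/-- The first shape. -/
theorem inC_of_form₁ {y a : GL chevD4.Idx K} {c d : K} (hy : (twD φ ax).s y = y)
    (ha : a ∈ chevD4.diagonalSubgroup K) (e : y = xG ax d4p2 c * a * xG ax d4p2 d) : InC ax φ y := by
  obtain ⟨z, rfl⟩ := exists_tor_of_mem ax hD ha
  have e1 : tor chevD4 z * xG ax d4p2 d = xG ax d4p2 ((chi chevD4 z d4p2 : Kˣ) * d) * tor chevD4 z :=
    tor_mul_xG ax hD z h14 d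
  set c' := c + (chi chevD4 z d4p2 : Kˣ) * d with hc'
  have e2 : y = xG ax d4p2 c' * tor chevD4 z := by
    rw [e, mul_assoc, e1, ← mul_assoc, xG_add]
  have hHG := diagonal_le_group hD ax
  have e3 : (twD φ ax).s y = xG ax d4p2 (φ c') * (twD φ ax).s (tor chevD4 z) := by
    rw [e2, (twD φ ax).s_mul _ (x_mem ax _) _ (hHG ha), s_x14]
  rw [hy, e2] at e3
  obtain ⟨h1, h2⟩ := borel_unique ax ha ((twD φ ax).s_H ha) e3
  obtain ⟨A, B, hA, hT⟩ := exists_tor0 ax φ hφ hφ3 hq1 ha h2.symm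
  rw [e2, hT]
  exact (inC_x ax φ h1.symm).mul (inC_tor0 ax φ A B hA)

include hφ hφ3 hq1 in
/-- The second shape. -/
theorem inC_of_form₂ {y a : GL chevD4.Idx K} {c d : K} (hy : (twD φ ax).s y = y)
    (ha : a ∈ chevD4.diagonalSubgroup K) (e : y = xG ax d4p2 c * a * sG ax 1 * xG ax d4p2 d) : InC ax φ y := by
  have hHG := diagonal_le_group hD ax
  have e3 : (twD φ ax).s y = xG ax d4p2 (φ c) * (twD φ ax).s a * sG ax 1 * xG ax d4p2 (φ d) := by
    rw [e, (twD φ ax).s_mul _ (Subgroup.mul_mem _ (Subgroup.mul_mem _ (x_mem ax _) (hHG ha)) (sG_mem ax)) _ (x_mem ax _),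
      (twD φ ax).s_mul _ (Subgroup.mul_mem _ (x_mem ax _) (hHG ha)) _ (sG_mem ax),
      (twD φ ax).s_mul _ (x_mem ax _) _ (hHG ha), s_x14, s_x14, s_sG]
  rw [hy, e] at e3
  have hB : ∀ {c : K} {a : GL chevD4.Idx K}, a ∈ chevD4.diagonalSubgroup K → xG ax d4p2 c * a ∈ chevD4.borelSubgroup K := by
    intro c a ha
    exact Subgroup.mul_mem _ (xG_mem_borel hD hD2 ax pos14 c) ((le_sup_right : chevD4.diagonalSubgroup K ≤ chevD4.borelSubgroup K) ha)
  have hN : sG ax 1 ∈ chevD4.monomialSubgroup K := sG_mem_monomial hD hD2 ax (by decide)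
  obtain ⟨-, hun⟩ := (normal_form hD hD2 ax).2 _ _ _ _ _ _ (hB ha) (hB ((twD φ ax).s_H ha)) hN hN
    (x_mem_invS ax d) (x_mem_invS ax (φ d)) e3
  obtain ⟨e4, e5⟩ := hun rfl
  obtain ⟨h1, h2⟩ := borel_unique ax ha ((twD φ ax).s_H ha) e4
  have hd : φ d = d := by
    by_contra hne
    have hne' : d - φ d ≠ 0 := sub_ne_zero.mpr (Ne.symm hne)
    have e6 : xG ax d4p2 (d - φ d) = xG ax d4p2 0 := by
      rw [sub_eq_add_neg, ← xG_add, ← xG_inv, ← e5, xG_zero]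
      group
    exact hne' (xG_eq_iff ax hD hD2 h14 h14 hne' e6).2
  obtain ⟨A, B, hA, hT⟩ := exists_tor0 ax φ hφ hφ3 hq1 ha h2.symm
  rw [e, hT]
  exact (((inC_x ax φ h1.symm).mul (inC_tor0 ax φ A B hA)).mul (inC_n ax φ)).mul (inC_x ax φ hd)

end Cfsg.Agent.Lib.TorD4.Fixed
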