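import Cfsg.Agent.Lib.TorD4.Singer

/-!
Lifting a generator along the norm; the Singer cycle with entries in the fixed field.
-/

set_option autoImplicit false
set_option linter.unusedSectionVars false
set_option linter.unusedVariables false

namespace Cfsg.Agent.Lib.TorD4.Gen

open scoped Matrix

/-- A generator with prescribed `n`-th power. -/
lemma exists_gen {G : Type*} [CommGroup G] [IsCyclic G] [Finite G] {n m : ℕ} (hn : 0 < n) (hm : 0 < m)
    (hcard : Nat.card G = n * m) {δ : G} (hδ : orderOf δ = m) : ∃ g : G, orderOf g = n * m ∧ g ^ n = δ := by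
  obtain ⟨γ, hγ⟩ := IsCyclic.exists_generator (α := G)
  have hord : orderOf γ = n * m := by rw [orderOf_eq_card_of_forall_mem_zpowers hγ, hcard]
  have hnm : 0 < n * m := Nat.mul_pos hn hm
  obtain ⟨i, hi⟩ : ∃ i : ℕ, γ ^ i = δ := by
    obtain ⟨i, hi⟩ := hγ δ
    refine ⟨(i % orderOf γ).toNat, ?_⟩
    have hpos : 0 < orderOf γ := orderOf_pos γ
    have h2 : (0 : ℤ) ≤ i % (orderOf γ : ℤ) := Int.emod_nonneg _ (by exact_mod_cast hpos.ne')
    rw [← zpow_natCast, Int.toNat_of_nonneg h2, zpow_mod_orderOf]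
    exact hi
  have h1 : δ ^ m = 1 := by rw [← hδ]; exact pow_orderOf_eq_one δ
  have h2 : n * m ∣ i * m := by
    rw [← hord]
    apply orderOf_dvd_of_pow_eq_one
    rw [pow_mul, hi, h1]
  obtain ⟨j, rfl⟩ : n ∣ i := Nat.dvd_of_mul_dvd_mul_right hm h2
  have hordn : orderOf (γ ^ n) = m := by
    rw [orderOf_pow, hord, Nat.gcd_eq_right (Nat.dvd_mul_right n m)]
    exact Nat.mul_div_cancel_left _ hn
  have h3 : δ = (γ ^ n) ^ j := by rw [← hi, pow_mul]
  have hcop : Nat.Coprime m j := by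
    have e := hδ
    rw [h3, orderOf_pow, hordn] at e
    rcases (Nat.div_eq_self).mp e with h0 | h0
    · omega
    · exact h0
  haveI : NeZero (n * m) := ⟨hnm.ne'⟩
  haveI : NeZero m := ⟨hm.ne'⟩
  let u0 : (ZMod m)ˣ := ZMod.unitOfCoprime j hcop.symm
  obtain ⟨u, hu⟩ := ZMod.unitsMap_surjective (Nat.dvd_mul_left m n) u0
  set j' := (u : ZMod (n * m)).val with hj'
  have hc' : Nat.Coprime j' (n * m) := ZMod.val_coe_unit_coprime u
  have hmod : j' ≡ j [MOD m] := by
    have e1 : ((j' : ℕ) : ZMod m) = (j : ZMod m) := by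
      have e2 := congrArg Units.val hu
      simp only [ZMod.unitsMap_val, u0, ZMod.coe_unitOfCoprime] at e2
      rw [← e2, hj', ZMod.natCast_val]
    exact (ZMod.natCast_eq_natCast_iff _ _ _).mp e1
  refine ⟨γ ^ j', ?_, ?_⟩
  · rw [orderOf_pow, hord, Nat.Coprime.gcd_eq_one hc'.symm, Nat.div_one]
  · rw [h3, ← pow_mul, mul_comm j' n, pow_mul]
    apply (pow_eq_pow_iff_modEq).mpr
    rw [hordn]
    exact hmod

section Fixed

variable {K : Type*} [Field K] [Fintype K] {q : ℕ}

/-- The fixed units. -/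
abbrev FqU (K : Type*) [Field K] (q : ℕ) : Subgroup Kˣ := (powMonoidHom (q - 1) : Kˣ →* Kˣ).ker

/-- The fixed field. -/
def kF (φ : K ≃+* K) : Subfield K := (φ : K →+* K).eqLocusField (RingHom.id K)

lemma mem_kF {φ : K ≃+* K} {x : K} : x ∈ kF φ ↔ φ x = x := Iff.rfl

lemma card_kF (hq : IsPrimePow q) (hK : Fintype.card K = q ^ 3) (φ : K ≃+* K) (hφ : ∀ t, φ t = t ^ q) :
    Nat.card (kF φ) = q := by
  classical
  have hq2 := hq.two_le
  have hq1 : 1 ≤ q := by omega
  have hU : Nat.card Kˣ = q ^ 3 - 1 := by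
    rw [Nat.card_eq_fintype_card, Fintype.card_units, hK]
  have hfac : q ^ 3 - 1 = (q - 1) * (q ^ 2 + q + 1) := by
    obtain ⟨p, rfl⟩ : ∃ p, q = p + 1 := ⟨q - 1, by omega⟩
    simp only [Nat.add_sub_cancel]
    rw [show (p + 1) ^ 3 = p * ((p + 1) ^ 2 + (p + 1) + 1) + 1 by ring]
    simp
  have hFq : Nat.card (FqU K q) = q - 1 := by
    rw [IsCyclic.card_powMonoidHom_ker, hU, hfac]
    exact Nat.gcd_eq_right (Nat.dvd_mul_right _ _)
  let ι : (kF φ)ˣ →* Kˣ := Units.map (kF φ).subtype.toMonoidHom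
  have hι : Function.Injective ι := Units.map_injective (f := (kF φ).subtype.toMonoidHom) Subtype.val_injective
  have hr : ι.range = FqU K q := by
    ext u
    constructor
    · rintro ⟨v, rfl⟩
      show (ι v) ^ (q - 1) = 1
      apply Units.ext
      have hv : φ ((v : kF φ) : K) = ((v : kF φ) : K) := (v : kF φ).2
      rw [hφ] at hv
      have hv0 : ((v : kF φ) : K) ≠ 0 := by
        intro h0
        exact v.ne_zero (Subtype.ext h0)
      have e : ((v : kF φ) : K) ^ q = ((v : kF φ) : K) ^ (q - 1) * ((v : kF φ) : K) := by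
        rw [← pow_succ, Nat.sub_add_cancel hq1]
      rw [e] at hv
      have := mul_eq_right₀ hv0 |>.mp hv
      show ((v : kF φ) : K) ^ (q - 1) = 1
      exact this
    · intro hu
      have hu1 : u ^ (q - 1) = 1 := hu
      have hval : φ (u : K) = u := by
        rw [hφ]
        have e : (u : K) ^ q = (u : K) ^ (q - 1) * (u : K) := by
          rw [← pow_succ, Nat.sub_add_cancel hq1]
        rw [e, ← Units.val_pow_eq_pow_val, hu1, Units.val_one, one_mul]
      refine ⟨Units.mk0 ⟨(u : K), hval⟩ (fun h0 => u.ne_zero (congrArg Subtype.val h0)), ?_⟩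
      apply Units.ext
      rfl
  have h1 : Nat.card (kF φ)ˣ = q - 1 := by
    rw [← hFq, ← hr]
    exact Nat.card_congr (MonoidHom.ofInjective hι).toEquiv
  have hfin : Finite (kF φ) := inferInstance
  have h2 := Nat.card_units (kF φ)
  have h3 : 2 ≤ Nat.card (kF φ) := Finite.one_lt_card
  omega

/-- The data of a self-centralizing torus of `GL₂(q)`. -/
theorem exists_data (hq : IsPrimePow q) (hK : Fintype.card K = q ^ 3) (φ : K ≃+* K) (hφ : ∀ t, φ t = t ^ q) :
    ∃ (Z₀ : GL (Fin 2) K) (g : Kˣ),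
      (∀ i j, φ (Z₀.1 i j) = Z₀.1 i j) ∧
      orderOf g = q ^ 3 - 1 ∧
      (Z₀ ^ (q + 1)).1 = (Matrix.GeneralLinearGroup.det Z₀ : K) • (1 : Matrix (Fin 2) (Fin 2) K) ∧
      g ^ (q ^ 2 + q + 1) = Matrix.GeneralLinearGroup.det Z₀ ∧
      (∀ (m : ℕ) (c : K), (Z₀ ^ m).1 = c • (1 : Matrix (Fin 2) (Fin 2) K) → q + 1 ∣ m) ∧
      ∀ W : GL (Fin 2) K, (∀ i j, φ (W.1 i j) = W.1 i j) → W * Z₀ = Z₀ * W → ∃ i : ℕ, W = Z₀ ^ i := by
  classical
  have hq2 := hq.two_le
  have hcardk := card_kF hq hK φ hφ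
  obtain ⟨Z, h1, h2, h3, h4⟩ := Singer.exists_singer (kF φ)
  rw [hcardk] at h1 h2 h3
  let ι : kF φ →+* K := (kF φ).subtype
  have hιinj : Function.Injective ι := Subtype.val_injective
  let mp : GL (Fin 2) (kF φ) →* GL (Fin 2) K := Matrix.GeneralLinearGroup.map ι
  have hmpval : ∀ (W : GL (Fin 2) (kF φ)) i j, (mp W).1 i j = ι (W.1 i j) := fun W i j => rfl
  have hmpdet : ∀ W : GL (Fin 2) (kF φ), ((Matrix.GeneralLinearGroup.det (mp W) : Kˣ) : K) =
      ι ((Matrix.GeneralLinearGroup.det W : (kF φ)ˣ) : kF φ) := by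
    intro W
    show Matrix.det (mp W).1 = ι (Matrix.det W.1)
    rw [RingHom.map_det]
    rfl
  set δ : Kˣ := Matrix.GeneralLinearGroup.det (mp Z) with hδ
  have hordδ : orderOf δ = q - 1 := by
    have e : δ = Units.map (ι : kF φ →* K) (Matrix.GeneralLinearGroup.det Z) := by
      apply Units.ext
      exact hmpdet Z
    rw [e, orderOf_injective _ (Units.map_injective (f := (ι : kF φ →* K)) hιinj), h2]
  have hfac : q ^ 3 - 1 = (q ^ 2 + q + 1) * (q - 1) := by
    obtain ⟨p, rfl⟩ : ∃ p, q = p + 1 := ⟨q - 1, by omega⟩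
    simp only [Nat.add_sub_cancel]
    rw [show (p + 1) ^ 3 = ((p + 1) ^ 2 + (p + 1) + 1) * p + 1 by ring]
    simp
  have hU : Nat.card Kˣ = (q ^ 2 + q + 1) * (q - 1) := by
    rw [Nat.card_eq_fintype_card, Fintype.card_units, hK, hfac]
  obtain ⟨g, hg1, hg2⟩ := exists_gen (by positivity) (by omega) hU hordδ
  refine ⟨mp Z, g, ?_, ?_, ?_, hg2, ?_, ?_⟩
  · intro i j
    exact (Z.1 i j).2
  · rw [hg1, hfac]
  · rw [← map_pow]
    ext i j
    rw [hmpval, hmpdet, h1]
    by_cases hij : i = j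
    · subst hij
      simp [Matrix.one_apply]
    · simp [Matrix.one_apply, hij]
  · intro m c hc
    rw [← map_pow] at hc
    have hc0 : c = ι ((Z ^ m).1 0 0) := by
      have := congrFun (congrFun hc 0) 0
      rw [hmpval] at this
      simpa using this.symm
    refine h3 m ((Z ^ m).1 0 0) ?_
    ext i j
    change ι ((Z ^ m).1 i j) = ι (((Z ^ m).1 0 0 • (1 : Matrix (Fin 2) (Fin 2) (kF φ))) i j)
    have e := congrFun (congrFun hc i) j
    rw [hmpval] at e
    rw [e, hc0]
    simp only [Matrix.smul_apply, Matrix.one_apply, smul_eq_mul, map_mul]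
    split_ifs <;> simp
  · intro W hW hcomm
    let W₀ : Matrix (Fin 2) (Fin 2) (kF φ) := fun i j => ⟨W.1 i j, hW i j⟩
    have hW₀ : W₀.map ι = W.1 := by
      ext i j
      rfl
    have hdet : W₀.det ≠ 0 := by
      intro h0
      have e : (W₀.map ι).det = ι W₀.det := by
        rw [RingHom.map_det]
        rfl
      rw [h0, map_zero, hW₀] at e
      exact W.det_ne_zero e
    let W₁ : GL (Fin 2) (kF φ) := Matrix.GeneralLinearGroup.mkOfDetNeZero W₀ hdet
    have hW₁ : mp W₁ = W := by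
      apply Units.ext
      exact hW₀
    rw [← hW₁] at hcomm
    have hinj : Function.Injective mp := by
      intro a b e
      apply Units.ext
      ext i j
      have e' : (mp a).1 = (mp b).1 := congrArg (fun x : GL (Fin 2) K => (x : Matrix (Fin 2) (Fin 2) K)) e
      exact congrFun (congrFun e' i) j
    have hc' : W₁ * Z = Z * W₁ := by
      apply hinj
      rw [map_mul, map_mul]
      exact hcomm
    obtain ⟨i, hi⟩ := h4 W₁ hc'
    refine ⟨i, ?_⟩
    rw [← hW₁, hi, map_pow]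

end Fixed

end Cfsg.Agent.Lib.TorD4.Gen
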