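import Cfsg.Agent.Lib.TorD4.Root
import Cfsg.Agent.Lib.Twisted.D4H

/-!
The homomorphism from `GL₂ × Kˣ` into the Chevalley group of type `D₄`, which on fixed points maps into
`³D₄`.
-/

set_option autoImplicit false
set_option linter.unusedSectionVars false
set_option linter.unusedVariables false
set_option linter.ambiguousOpen false

namespace Cfsg.Agent.Lib.TorD4.Psi

open scoped MatrixGroups Matrix
open Cfsg Lie ChevalleyDatum
open Cfsg.Agent.Lib.Chev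
open Tables Tables2 Tables3 Raise Basic AxBasic Torus Products Products2 Mono1 Mono2 Mono3 Bn Diag SL2 SL2Chev
open Cfsg.Agent.Lib.Twisted.Bruhat Cfsg.Agent.Lib.Twisted.D4H Cfsg.Agent.Lib.Twisted.TorusFix
open Cfsg.Agent.Lib.TorD4.Root

theorem h14 : d4p2 < chevD4.nroots := by decide +kernel

theorem pos14 : chevD4.IsPosRoot d4p2 := by decide +kernel

theorem neg14 : chevD4.neg d4p2 = d4m2 := by decide +kernel

variable {K : Type*} [Field K]

/-- The values of the weight. -/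
lemma chi_eq {F : Type*} [Field F] (y : ℕ → Fˣ) (s : ℕ) :
    chi chevD4 y s = y 0 ^ coef chevD4 s 0 * y 1 ^ coef chevD4 s 1 * y 2 ^ coef chevD4 s 2 * y 3 ^ coef chevD4 s 3 := by
  rw [chi, rank_D4]
  simp only [Finset.prod_range_succ, Finset.prod_range_zero, one_mul]

theorem coef14 : coef chevD4 d4p2 0 = 0 ∧ coef chevD4 d4p2 1 = 1 ∧ coef chevD4 d4p2 2 = 0 ∧ coef chevD4 d4p2 3 = 0 := by
  decide +kernel

lemma chi14 {F : Type*} [Field F] (y : ℕ → Fˣ) : chi chevD4 y d4p2 = y 1 := by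
  rw [chi_eq]
  obtain ⟨e0, e1, e2, e3⟩ := coef14
  rw [e0, e1, e2, e3]
  simp

section
variable (ax : Ax chevD4 K) (φ : K ≃+* K)

/-- The morphism from `SL₂`. -/
noncomputable def f : SL(2, K) →* GL chevD4.Idx K := fH hD hD2 ax h14

/-- The diagonal elements. -/
noncomputable def tor0 (A B : Kˣ) : GL chevD4.Idx K := tor chevD4 (vec4 B A (φu φ B) (φu φ (φu φ B)))

lemma tor0_mul (A B A' B' : Kˣ) : tor0 φ A B * tor0 φ A' B' = tor0 φ (A * A') (B * B') := by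
  rw [tor0, tor0, tor0, ← tor_mul]
  congr 1
  funext i
  rcases i with _ | _ | _ | _ | i <;> simp [vec4]

lemma tor0_one : tor0 φ 1 1 = (1 : GL chevD4.Idx K) := by
  rw [tor0, ← tor_one]
  congr 1
  funext i
  rcases i with _ | _ | _ | _ | i <;> simp [vec4]

lemma tor0_conj (A B : Kˣ) (M : SL(2, K)) :
    tor0 φ A B * f ax M * (tor0 φ A B)⁻¹ = f ax (dconj A M) := by
  have := tor_conj_fH hD hD2 ax h14 (vec4 B A (φu φ B) (φu φ (φu φ B))) M
  rw [chi14] at this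
  exact this

/-- The normalised matrix. -/
noncomputable def nSL (Z : GL (Fin 2) K) : SL(2, K) :=
  ⟨!![Z.1 0 0 / (Matrix.GeneralLinearGroup.det Z : Kˣ), Z.1 0 1;
      Z.1 1 0 / (Matrix.GeneralLinearGroup.det Z : Kˣ), Z.1 1 1], by
    have hd := (Matrix.GeneralLinearGroup.det Z).ne_zero
    have e : ((Matrix.GeneralLinearGroup.det Z : Kˣ) : K) = Z.1 0 0 * Z.1 1 1 - Z.1 0 1 * Z.1 1 0 := by
      show Matrix.det Z.1 = _
      rw [Matrix.det_fin_two]
    rw [Matrix.det_fin_two]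
    simp only [Matrix.of_apply, Matrix.cons_val', Matrix.cons_val_zero, Matrix.cons_val_one]
    field_simp
    exact e.symm⟩

lemma nSL_mul (Z Z' : GL (Fin 2) K) :
    nSL (Z * Z') = nSL Z * dconj (Matrix.GeneralLinearGroup.det Z) (nSL Z') := by
  have hd := (Matrix.GeneralLinearGroup.det Z).ne_zero
  have hd' := (Matrix.GeneralLinearGroup.det Z').ne_zero
  apply Subtype.ext
  ext i j
  show (nSL (Z * Z')).1 i j = ((nSL Z).1 * (dconj (Matrix.GeneralLinearGroup.det Z) (nSL Z')).1) i j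
  rw [Matrix.mul_apply, Fin.sum_univ_two]
  fin_cases i <;> fin_cases j <;>
    simp only [Fin.zero_eta, Fin.mk_one, nSL, dconj, Matrix.of_apply, Matrix.cons_val', Matrix.cons_val_zero,
      Matrix.cons_val_one, map_mul, Units.val_mul, Units.val_mul, Matrix.mul_apply, Fin.sum_univ_two] <;>
    field_simp

/-- The homomorphism. -/
noncomputable def Ψ : GL (Fin 2) K × Kˣ →* GL chevD4.Idx K :=
  MonoidHom.mk' (fun x => f ax (nSL x.1) * tor0 φ (Matrix.GeneralLinearGroup.det x.1) x.2) (by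
    rintro ⟨Z, w⟩ ⟨Z', w'⟩
    simp only [Prod.mk_mul_mk]
    rw [nSL_mul, map_mul, map_mul, ← tor0_mul, ← tor0_conj ax φ (Matrix.GeneralLinearGroup.det Z) w]
    group)

lemma Ψ_apply (Z : GL (Fin 2) K) (w : Kˣ) :
    Ψ ax φ (Z, w) = f ax (nSL Z) * tor0 φ (Matrix.GeneralLinearGroup.det Z) w := rfl

lemma nSL_one : nSL (1 : GL (Fin 2) K) = 1 := by
  apply Subtype.ext
  ext i j
  fin_cases i <;> fin_cases j <;> simp [nSL]

lemma Ψ_one_left (w : Kˣ) : Ψ ax φ (1, w) = tor0 φ 1 w := by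
  rw [Ψ_apply, nSL_one, map_one, map_one, one_mul]

/-- The values of `hW`. -/
theorem pair14 : pair chevD4 d4p2 (chevD4.simple 0) = -1 ∧ pair chevD4 d4p2 (chevD4.simple 1) = 2 ∧
    pair chevD4 d4p2 (chevD4.simple 2) = -1 ∧ pair chevD4 d4p2 (chevD4.simple 3) = -1 := by decide +kernel

lemma hW14 {F : Type*} [Field F] (c : Fˣ) : hW chevD4 d4p2 c 0 = c⁻¹ ∧ hW chevD4 d4p2 c 1 = c ^ 2 ∧
    hW chevD4 d4p2 c 2 = c⁻¹ ∧ hW chevD4 d4p2 c 3 = c⁻¹ := by
  obtain ⟨e0, e1, e2, e3⟩ := pair14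
  simp only [hW, e0, e1, e2, e3]
  norm_num

/-- The image of a diagonal matrix under `f`. -/
lemma f_of_offdiag {M : SL(2, K)} (hc : M.1 1 0 = 0) (hb : M.1 0 1 = 0) :
    f ax M = tor chevD4 (hW chevD4 d4p2 (Units.mk0 (M.1 0 0) (ne_zero_of_c hc))) :=
  fH_of_offdiag' hc hb

/-- If a diagonal element of `GL₂` is mapped to `1`. -/
lemma eq_of_Ψ_diag {Z : GL (Fin 2) K} {w : Kˣ} (h0 : Z.1 0 1 = 0) (h1 : Z.1 1 0 = 0)
    (he : Ψ ax φ (Z, w) = 1) : Z.1 0 0 = Z.1 1 1 ∧ Z.1 1 1 * w = 1 := by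
  set d := Matrix.GeneralLinearGroup.det Z with hd
  have hdv : (d : K) = Z.1 0 0 * Z.1 1 1 := by
    show Matrix.det Z.1 = _
    rw [Matrix.det_fin_two, h0, zero_mul, sub_zero]
  have hd0 := d.ne_zero
  have hz0 : Z.1 0 0 ≠ 0 := fun h => hd0 (by rw [hdv, h, zero_mul])
  have hz1 : Z.1 1 1 ≠ 0 := fun h => hd0 (by rw [hdv, h, mul_zero])
  have hc : (nSL Z).1 1 0 = 0 := by
    show Z.1 1 0 / (d : K) = 0
    rw [h1, zero_div]
  have hb : (nSL Z).1 0 1 = 0 := h0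
  rw [Ψ_apply, f_of_offdiag ax hc hb, tor0, ← tor_mul, ← tor_one, tor_eq_iff hD] at he
  set a := Units.mk0 ((nSL Z).1 0 0) (ne_zero_of_c hc) with ha
  have haval : (a : K) = (Z.1 1 1)⁻¹ := by
    show Z.1 0 0 / (d : K) = _
    rw [hdv]
    field_simp
  obtain ⟨e0, e1, e2, e3⟩ := hW14 a
  have h10 := he 0 (by decide)
  have h11 := he 1 (by decide)
  simp only [Pi.mul_apply, Pi.one_apply, e0, e1] at h10 h11
  have h10' := congrArg Units.val h10
  have h11' := congrArg Units.val h11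
  simp only [vec4, Units.val_mul, Units.val_inv_eq_inv_val, Units.val_pow_eq_pow_val, Units.val_one, haval] at h10' h11'
  constructor
  · rw [hdv] at h11'
    field_simp at h11'
    linear_combination h11'
  · field_simp at h10'
    linear_combination h10'

/-- The morphism from `SL₂` is injective. -/
theorem f_injective : Function.Injective (f ax) := by
  rw [injective_iff_map_eq_one]
  intro M hM
  have hmem : fH hD hD2 ax h14 M ∈ chevD4.diagonalSubgroup K := by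
    have : fH hD hD2 ax h14 M = 1 := hM
    rw [this]
    exact Subgroup.one_mem _
  obtain ⟨hc, hb⟩ := offdiag_of_mem pos14 hmem
  have e := f_of_offdiag ax hc hb
  rw [hM, ← tor_one, tor_eq_iff hD] at e
  set a := Units.mk0 (M.1 0 0) (ne_zero_of_c hc) with ha
  have h10 := e 0 (by decide)
  obtain ⟨e0, -, -, -⟩ := hW14 a
  rw [e0] at h10
  have h3 : a = 1 := by simpa using h10.symm
  have h4 : M.1 0 0 = 1 := by
    have := congrArg Units.val h3
    simpa [ha] using this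
  have h5 : M.1 1 1 = 1 := by
    have := det_eq M
    rw [h4, hb, hc] at this
    simpa using this
  apply Subtype.ext
  ext i j
  fin_cases i <;> fin_cases j <;> simp [h4, h5, hb, hc]

/-- Commuting images come from commuting matrices. -/
theorem comm_of_Ψ {Z Z' : GL (Fin 2) K} {w w' : Kˣ} (he : Ψ ax φ (Z, w) * Ψ ax φ (Z', w') = Ψ ax φ (Z', w') * Ψ ax φ (Z, w)) :
    Z * Z' = Z' * Z := by
  rw [← map_mul, ← map_mul, Prod.mk_mul_mk, Prod.mk_mul_mk, Ψ_apply, Ψ_apply, mul_comm w w'] at he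
  have hd : Matrix.GeneralLinearGroup.det (Z * Z') = Matrix.GeneralLinearGroup.det (Z' * Z) := by
    rw [map_mul, map_mul, mul_comm]
  rw [hd] at he
  have e1 := f_injective ax (mul_right_cancel he)
  have hdv := (Matrix.GeneralLinearGroup.det (Z' * Z)).ne_zero
  have e00 : (Z * Z').1 0 0 / ((Matrix.GeneralLinearGroup.det (Z * Z') : Kˣ) : K) =
      (Z' * Z).1 0 0 / ((Matrix.GeneralLinearGroup.det (Z' * Z) : Kˣ) : K) := congrArg (fun M : SL(2, K) => M.1 0 0) e1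
  have e01 : (Z * Z').1 0 1 = (Z' * Z).1 0 1 := congrArg (fun M : SL(2, K) => M.1 0 1) e1
  have e10 : (Z * Z').1 1 0 / ((Matrix.GeneralLinearGroup.det (Z * Z') : Kˣ) : K) =
      (Z' * Z).1 1 0 / ((Matrix.GeneralLinearGroup.det (Z' * Z) : Kˣ) : K) := congrArg (fun M : SL(2, K) => M.1 1 0) e1
  have e11 : (Z * Z').1 1 1 = (Z' * Z).1 1 1 := congrArg (fun M : SL(2, K) => M.1 1 1) e1
  rw [hd] at e00 e10
  apply Units.ext
  ext i j
  fin_cases i <;> fin_cases j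
  · exact (div_left_inj' hdv).mp e00
  · exact e01
  · exact (div_left_inj' hdv).mp e10
  · exact e11

end

section Fin

variable {q : ℕ} [Finite K] (ax : Ax chevD4 K) (φ : K ≃+* K) (hφ : ∀ t, φ t = t ^ q)
  (hφ3 : ∀ t, φ (φ (φ t)) = t) (hq1 : 1 ≤ q)

lemma φu_φu_φu (x : Kˣ) (hφ3 : ∀ t, φ (φ (φ t)) = t) : φu φ (φu φ (φu φ x)) = x := by
  apply Units.ext
  simp only [φu_coe]
  exact hφ3 _

include hφ hφ3 hq1 in
lemma Φ_eq_tor0 (x : Fq K q × Kˣ) :
    Φ (q := q) φ x = tor0 φ (psi chevD4 (cHom φ x) 1) (psi chevD4 (cHom φ x) 0) := by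
  rw [Φ_apply, tor0, tor_eq_iff hD]
  have hx1 : φu φ (x.1 : Kˣ) = x.1 := φu_of_mem φ hφ hq1 x.1.2
  obtain ⟨h0, h1, h2, h3⟩ := psi_D4 (cHom φ x)
  have e0 : cHom φ x 0 = x.2 := rfl
  have e1 : cHom φ x 1 = (x.1 : Kˣ) := rfl
  have e2 : cHom φ x 2 = φu φ x.2 := rfl
  have e3 : cHom φ x 3 = φu φ (φu φ x.2) := rfl
  intro j hj
  have hj4 : j < 4 := hj
  interval_cases j
  · rfl
  · rfl
  · show psi chevD4 (cHom φ x) 2 = φu φ (psi chevD4 (cHom φ x) 0)
    rw [h2, h0, e0, e1, e2, map_mul, map_pow, map_inv, hx1]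
    exact mul_comm _ _
  · show psi chevD4 (cHom φ x) 3 = φu φ (φu φ (psi chevD4 (cHom φ x) 0))
    rw [h3, h0, e0, e1, e3, map_mul, map_pow, map_inv, hx1, map_mul, map_pow, map_inv, hx1]
    exact mul_comm _ _

include ax hφ hφ3 hq1 in
/-- The elements `tor0 A B` are the elements of the diagonal subgroup of `³D₄`. -/
theorem tor0_mem {A : Kˣ} (hA : φu φ A = A) (B : Kˣ) :
    tor0 φ A B ∈ (Φ (q := q) φ).range := by
  classical
  have hinj : Function.Injective (Φ (q := q) φ) := (MonoidHom.ker_eq_bot_iff _).mp (ker_eq ax φ hφ hφ3 hq1)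
  have hfix : ∀ x : Fq K q × Kˣ, psi chevD4 (cHom φ x) 1 ∈ Fq K q := by
    intro x
    apply mem_of_φu φ hφ hq1
    have hx1 : φu φ (x.1 : Kˣ) = x.1 := φu_of_mem φ hφ hq1 x.1.2
    obtain ⟨-, h1, -, -⟩ := psi_D4 (cHom φ x)
    have e0 : cHom φ x 0 = x.2 := rfl
    have e1 : cHom φ x 1 = (x.1 : Kˣ) := rfl
    have e2 : cHom φ x 2 = φu φ x.2 := rfl
    have e3 : cHom φ x 3 = φu φ (φu φ x.2) := rfl
    rw [h1, e0, e1, e2, e3]
    simp only [map_mul, map_pow, map_inv, hx1, φu_φu_φu φ _ hφ3]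
    ac_rfl
  let Θ : Fq K q × Kˣ → Fq K q × Kˣ := fun x => (⟨psi chevD4 (cHom φ x) 1, hfix x⟩, psi chevD4 (cHom φ x) 0)
  have hΘ : Function.Injective Θ := by
    intro x x' he
    apply hinj
    rw [Φ_eq_tor0 φ hφ hφ3 hq1, Φ_eq_tor0 φ hφ hφ3 hq1]
    have e1 := congrArg (fun z : Fq K q × Kˣ => (z.1 : Kˣ)) he
    have e2 := congrArg Prod.snd he
    simp only [Θ] at e1 e2
    rw [e1, e2]
  have hfin : Finite (Fq K q × Kˣ) := inferInstance
  obtain ⟨x, hx⟩ := Finite.surjective_of_injective hΘ (⟨A, mem_of_φu φ hφ hq1 hA⟩, B)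
  refine ⟨x, ?_⟩
  rw [Φ_eq_tor0 φ hφ hφ3 hq1]
  have e1 := congrArg (fun z : Fq K q × Kˣ => (z.1 : Kˣ)) hx
  have e2 := congrArg Prod.snd hx
  simp only [Θ] at e1 e2
  rw [e1, e2]

include ax hφ hφ3 hq1 in
theorem tor0_mem_G1 {A : Kˣ} (hA : φu φ A = A) (B : Kˣ) : tor0 φ A B ∈ twistedD4 K q := by
  have := tor0_mem ax φ hφ hφ3 hq1 hA B
  rw [range_eq ax φ hφ hφ3 hq1] at this
  exact this.2

include ax hφ hφ3 hq1 in
theorem tor0_mem_H {A : Kˣ} (hA : φu φ A = A) (B : Kˣ) : tor0 φ A B ∈ chevD4.diagonalSubgroup K := by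
  have := tor0_mem ax φ hφ hφ3 hq1 hA B
  rw [range_eq ax φ hφ hφ3 hq1] at this
  exact this.1

include hφ hφ3 in
/-- A matrix with fixed entries maps into `³D₄`. -/
theorem f_mem {M : SL(2, K)} (hM : ∀ i j, φ (M.1 i j) = M.1 i j) : f ax M ∈ twistedD4 K q := by
  have hX : ∀ {t : K}, φ t = t → xG ax d4p2 t ∈ twistedD4 K q := fun {t} ht =>
    mem_single ax (by decide) (by rw [← hφ, ht])
  have hY : ∀ {t : K}, φ t = t → xG ax (chevD4.neg d4p2) t ∈ twistedD4 K q := fun {t} ht => by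
    rw [neg14]
    exact mem_single ax (by decide) (by rw [← hφ, ht])
  show fH hD hD2 ax h14 M ∈ twistedD4 K q
  rw [fH_apply]
  by_cases hc : M.1 1 0 = 0
  · rw [phiF_of_c0 hc, HH_eq]
    refine Subgroup.mul_mem _ (hG2_mem ax φ hφ hφ3 (hM 0 0)) (hX ?_)
    rw [map_div₀, hM, hM]
  · rw [phiF_of_cne hc, WW_eq]
    have hs : φ (-1 / M.1 1 0) = -1 / M.1 1 0 := by
      rw [map_div₀, map_neg, map_one, hM]
    refine Subgroup.mul_mem _ (Subgroup.mul_mem _ (hX ?_) ?_) (hX ?_)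
    · rw [map_div₀, hM, hM]
    · simp only [nG]
      refine Subgroup.mul_mem _ (Subgroup.mul_mem _ (hX hs) (hY ?_)) (hX hs)
      rw [map_neg, map_inv₀, hs]
    · rw [map_div₀, hM, hM]

lemma det_fixed {Z : GL (Fin 2) K} (hZ : ∀ i j, φ (Z.1 i j) = Z.1 i j) :
    φu φ (Matrix.GeneralLinearGroup.det Z) = Matrix.GeneralLinearGroup.det Z := by
  apply Units.ext
  show φ (Matrix.det Z.1) = Matrix.det Z.1
  rw [Matrix.det_fin_two, map_sub, map_mul, map_mul, hZ, hZ, hZ, hZ]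

lemma nSL_fixed {Z : GL (Fin 2) K} (hZ : ∀ i j, φ (Z.1 i j) = Z.1 i j) (i j : Fin 2) :
    φ ((nSL Z).1 i j) = (nSL Z).1 i j := by
  have hd : φ ((Matrix.GeneralLinearGroup.det Z : Kˣ) : K) = (Matrix.GeneralLinearGroup.det Z : Kˣ) := by
    have := congrArg Units.val (det_fixed φ hZ)
    exact this
  have hd' : φ (Matrix.det Z.1) = Matrix.det Z.1 := hd
  fin_cases i <;> fin_cases j <;> simp [nSL, hZ, map_div₀, hd']

include ax hφ hφ3 hq1 in
/-- The image of a fixed matrix is in `³D₄`. -/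
theorem Ψ_mem {Z : GL (Fin 2) K} (hZ : ∀ i j, φ (Z.1 i j) = Z.1 i j) (w : Kˣ) :
    Ψ ax φ (Z, w) ∈ twistedD4 K q := by
  rw [Ψ_apply]
  exact Subgroup.mul_mem _ (f_mem ax φ hφ hφ3 (nSL_fixed φ hZ))
    (tor0_mem_G1 ax φ hφ hφ3 hq1 (det_fixed φ hZ) w)

/-- The image of a scalar matrix. -/
theorem Ψ_scalar {Z : GL (Fin 2) K} {c : Kˣ} (hZ : Z.1 = (c : K) • (1 : Matrix (Fin 2) (Fin 2) K)) (hc : φu φ c = c) (w : Kˣ) :
    Ψ ax φ (Z, w) = tor0 φ 1 (c * w) := by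
  have h00 : Z.1 0 0 = c := by rw [hZ]; simp
  have h11 : Z.1 1 1 = c := by rw [hZ]; simp
  have h01 : Z.1 0 1 = 0 := by rw [hZ]; simp
  have h10 : Z.1 1 0 = 0 := by rw [hZ]; simp
  have hd : Matrix.GeneralLinearGroup.det Z = c ^ 2 := by
    apply Units.ext
    show Matrix.det Z.1 = _
    rw [Matrix.det_fin_two, h00, h11, h01, h10]
    simp [pow_two]
  have hc0 := c.ne_zero
  have hcb : (nSL Z).1 1 0 = 0 := by
    show Z.1 1 0 / _ = 0
    rw [h10, zero_div]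
  have hbb : (nSL Z).1 0 1 = 0 := h01
  rw [Ψ_apply, f_of_offdiag ax hcb hbb, hd, tor0, ← tor_mul, tor0, tor_eq_iff hD]
  set a := Units.mk0 ((nSL Z).1 0 0) (ne_zero_of_c hcb) with ha
  have haval : a = c⁻¹ := by
    apply Units.ext
    show Z.1 0 0 / ((Matrix.GeneralLinearGroup.det Z : Kˣ) : K) = _
    rw [hd, h00]
    simp only [Units.val_pow_eq_pow_val, Units.val_inv_eq_inv_val]
    field_simp
  obtain ⟨e0, e1, e2, e3⟩ := hW14 a
  rw [haval] at e0 e1 e2 e3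
  intro j hj
  have hj4 : j < 4 := hj
  interval_cases j
  · show hW chevD4 d4p2 a 0 * w = c * w
    rw [haval, e0, inv_inv]
  · show hW chevD4 d4p2 a 1 * (c ^ 2) = 1
    rw [haval, e1]
    simp
  · show hW chevD4 d4p2 a 2 * φu φ w = φu φ (c * w)
    rw [haval, e2, inv_inv, map_mul, hc]
  · show hW chevD4 d4p2 a 3 * φu φ (φu φ w) = φu φ (φu φ (c * w))
    rw [haval, e3, inv_inv, map_mul, map_mul, hc, hc]

include ax hφ hφ3 hq1 in
/-- The kernel. -/
theorem ker_Ψ {Z : GL (Fin 2) K} (hZ : ∀ i j, φ (Z.1 i j) = Z.1 i j) {w : Kˣ} (he : Ψ ax φ (Z, w) = 1) :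
    Z.1 = (Z.1 1 1) • (1 : Matrix (Fin 2) (Fin 2) K) ∧ Z.1 1 1 * w = 1 := by
  have hT := tor0_mem_H ax φ hφ hφ3 hq1 (det_fixed φ hZ) w
  have hm : fH hD hD2 ax h14 (nSL Z) ∈ chevD4.diagonalSubgroup K := by
    have e : fH hD hD2 ax h14 (nSL Z) = (tor0 φ (Matrix.GeneralLinearGroup.det Z) w)⁻¹ :=
      eq_inv_of_mul_eq_one_left he
    rw [e]
    exact Subgroup.inv_mem _ hT
  obtain ⟨hc, hb⟩ := offdiag_of_mem pos14 hm
  have hd0 := (Matrix.GeneralLinearGroup.det Z).ne_zero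
  have h10 : Z.1 1 0 = 0 := by
    have : Z.1 1 0 / ((Matrix.GeneralLinearGroup.det Z : Kˣ) : K) = 0 := hc
    rcases div_eq_zero_iff.mp this with h | h
    · exact h
    · exact absurd h hd0
  have h01 : Z.1 0 1 = 0 := hb
  obtain ⟨e1, e2⟩ := eq_of_Ψ_diag ax φ h01 h10 he
  refine ⟨?_, e2⟩
  ext i j
  fin_cases i <;> fin_cases j <;> simp [h01, h10, e1]

end Fin

end Cfsg.Agent.Lib.TorD4.Psi
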