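import Mathlib

/-!
A Singer cycle in `GL₂` of a finite field.
-/

set_option autoImplicit false
set_option linter.unusedSectionVars false
set_option linter.unusedVariables false

namespace Cfsg.Agent.Lib.TorD4.Singer

open scoped Matrix

lemma commutant_two {k : Type*} [Field k] (A W : Matrix (Fin 2) (Fin 2) k) (hA : ¬ ∃ c : k, A = c • 1)
    (hc : W * A = A * W) : ∃ α β : k, W = α • 1 + β • A := by
  have h00 := congrFun (congrFun hc 0) 0
  have h01 := congrFun (congrFun hc 0) 1
  have h10 := congrFun (congrFun hc 1) 0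
  simp only [Matrix.mul_apply, Fin.sum_univ_two] at h00 h01 h10
  have key : ∀ α β : k, α + β * A 0 0 = W 0 0 → β * A 0 1 = W 0 1 → β * A 1 0 = W 1 0 →
      α + β * A 1 1 = W 1 1 → W = α • 1 + β • A := by
    intro α β e00 e01 e10 e11
    ext i j
    fin_cases i <;> fin_cases j <;> simp [Matrix.one_apply, e00, e01, e10, e11]
  by_cases hb : A 0 1 = 0
  · by_cases hc' : A 1 0 = 0
    · by_cases had : A 0 0 = A 1 1
      · exfalso
        apply hA
        refine ⟨A 0 0, ?_⟩
        ext i j
        fin_cases i <;> fin_cases j <;> simp [Matrix.one_apply, hb, hc', had]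
      · have hne : A 0 0 - A 1 1 ≠ 0 := sub_ne_zero.mpr had
        rw [hb] at h01
        rw [hc'] at h10
        have hy : W 0 1 = 0 := by
          have : W 0 1 * (A 0 0 - A 1 1) = 0 := by linear_combination -h01
          exact (mul_eq_zero.mp this).resolve_right hne
        have hz : W 1 0 = 0 := by
          have : W 1 0 * (A 0 0 - A 1 1) = 0 := by linear_combination h10
          exact (mul_eq_zero.mp this).resolve_right hne
        refine ⟨W 0 0 - (W 0 0 - W 1 1) / (A 0 0 - A 1 1) * A 0 0, (W 0 0 - W 1 1) / (A 0 0 - A 1 1),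
          key _ _ (by ring) (by rw [hb, hy, mul_zero]) (by rw [hc', hz, mul_zero]) ?_⟩
        field_simp
        ring
    · refine ⟨W 0 0 - W 1 0 / A 1 0 * A 0 0, W 1 0 / A 1 0, key _ _ (by ring) ?_ ?_ ?_⟩
      · field_simp
        linear_combination -h00
      · field_simp
      · field_simp
        linear_combination -h10
  · refine ⟨W 0 0 - W 0 1 / A 0 1 * A 0 0, W 0 1 / A 0 1, key _ _ (by ring) ?_ ?_ ?_⟩
    · field_simp
    · field_simp
      linear_combination h00
    · field_simp
      linear_combination h01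

/-- A Singer cycle. -/
theorem exists_singer (k : Type*) [Field k] [Finite k] :
    ∃ Z : GL (Fin 2) k,
      (Z ^ (Nat.card k + 1)).1 = (Matrix.GeneralLinearGroup.det Z : k) • (1 : Matrix (Fin 2) (Fin 2) k) ∧
      orderOf (Matrix.GeneralLinearGroup.det Z) = Nat.card k - 1 ∧
      (∀ (m : ℕ) (c : k), (Z ^ m).1 = c • (1 : Matrix (Fin 2) (Fin 2) k) → Nat.card k + 1 ∣ m) ∧
      ∀ W : GL (Fin 2) k, W * Z = Z * W → ∃ i : ℕ, W = Z ^ i := by
  classical
  obtain ⟨p, hp⟩ := CharP.exists k
  have : Fact p.Prime := ⟨(CharP.char_is_prime_or_zero k p).resolve_right (by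
    intro h0
    subst h0
    haveI : CharZero k := CharP.charP_to_charZero k
    exact not_finite k)⟩
  set q := Nat.card k with hq
  have hq2 : 2 ≤ q := Finite.one_lt_card
  let L := FiniteField.Extension k p 2
  haveI : Fintype k := Fintype.ofFinite k
  haveI : Fintype L := Fintype.ofFinite L
  have hL : Nat.card L = q ^ 2 := FiniteField.natCard_extension k p 2
  have hfr : Module.finrank k L = 2 := FiniteField.finrank_extension k p 2
  let b : Module.Basis (Fin 2) k L := Module.finBasisOfFinrankEq k L hfr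
  let M : L →ₐ[k] Matrix (Fin 2) (Fin 2) k := Algebra.leftMulMatrix b
  have hM : Function.Injective M := Algebra.leftMulMatrix_injective b
  obtain ⟨ζ, hζ⟩ := IsCyclic.exists_generator (α := Lˣ)
  have hcard : Nat.card Lˣ = q ^ 2 - 1 := by
    rw [Nat.card_eq_fintype_card, Fintype.card_units, ← Nat.card_eq_fintype_card, hL]
  have hord : orderOf ζ = q ^ 2 - 1 := by
    rw [orderOf_eq_card_of_forall_mem_zpowers hζ, hcard]
  let Z : GL (Fin 2) k := Units.map (M : L →* Matrix (Fin 2) (Fin 2) k) ζ
  have hZval : ∀ m : ℕ, (Z ^ m).1 = M ((ζ : L) ^ m) := by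
    intro m
    rw [map_pow]
    rfl
  have hdet : ((Matrix.GeneralLinearGroup.det Z : kˣ) : k) = Algebra.norm k (ζ : L) := by
    rw [Algebra.norm_eq_matrix_det b]
    rfl
  have hdiv : (q ^ 2 - 1) / (q - 1) = q + 1 := by
    have e : q ^ 2 - 1 = (q + 1) * (q - 1) := by
      obtain ⟨r, hr⟩ : ∃ r, q = r + 1 := ⟨q - 1, by omega⟩
      rw [hr]
      simp only [Nat.add_sub_cancel]
      rw [show (r + 1) ^ 2 = (r + 1 + 1) * r + 1 by ring]
      simp
    rw [e]
    exact Nat.mul_div_cancel _ (by omega)
  have hnorm : algebraMap k L (Algebra.norm k (ζ : L)) = (ζ : L) ^ (q + 1) := by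
    have := FiniteField.algebraMap_norm_eq_pow (K := k) (K' := L) (x := (ζ : L))
    rw [hL, ← hq, hdiv] at this
    exact this
  have hfac : q ^ 2 - 1 = (q + 1) * (q - 1) := by
    obtain ⟨r, hr⟩ : ∃ r, q = r + 1 := ⟨q - 1, by omega⟩
    rw [hr]
    simp only [Nat.add_sub_cancel]
    rw [show (r + 1) ^ 2 = (r + 1 + 1) * r + 1 by ring]
    simp
  have hq1 : 0 < q - 1 := by omega
  have hscal : ∀ (x : k), M (algebraMap k L x) = x • 1 := by
    intro x
    rw [AlgHom.commutes, Algebra.algebraMap_eq_smul_one]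
  have hZdvd : ∀ (m : ℕ) (c : k), (Z ^ m).1 = c • (1 : Matrix (Fin 2) (Fin 2) k) → q + 1 ∣ m := by
    intro m c hc
    rw [hZval, ← hscal] at hc
    have e1 : (ζ : L) ^ m = algebraMap k L c := hM hc
    have hc0 : c ≠ 0 := by
      rintro rfl
      rw [map_zero] at e1
      exact (pow_ne_zero m ζ.ne_zero) e1
    have hc1 : c ^ (q - 1) = 1 := by
      have := FiniteField.pow_card_sub_one_eq_one c hc0
      rwa [← Nat.card_eq_fintype_card, ← hq] at this
    have e2 : ζ ^ (m * (q - 1)) = 1 := by
      apply Units.ext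
      rw [Units.val_pow_eq_pow_val, pow_mul, e1, ← map_pow, hc1, map_one, Units.val_one]
    have e3 := orderOf_dvd_of_pow_eq_one e2
    rw [hord, hfac] at e3
    exact Nat.dvd_of_mul_dvd_mul_right hq1 e3
  have hZpow : (Z ^ (q + 1)).1 = (Matrix.GeneralLinearGroup.det Z : k) • (1 : Matrix (Fin 2) (Fin 2) k) := by
    rw [hZval, hdet, ← hnorm, hscal]
  refine ⟨Z, ?_, ?_, ?_, ?_⟩
  · exact hZpow
  · -- the order of the determinant
    set δ := Matrix.GeneralLinearGroup.det Z with hδ
    have hδL : algebraMap k L (δ : k) = (ζ : L) ^ (q + 1) := by rw [hdet, hnorm]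
    apply (orderOf_eq_iff hq1).mpr
    constructor
    · apply Units.ext
      rw [Units.val_pow_eq_pow_val, Units.val_one]
      exact (by
        have := FiniteField.pow_card_sub_one_eq_one (δ : k) δ.ne_zero
        rwa [← Nat.card_eq_fintype_card, ← hq] at this)
    · intro m hm hm0 he
      have e1 : ζ ^ ((q + 1) * m) = 1 := by
        apply Units.ext
        rw [Units.val_pow_eq_pow_val, pow_mul, ← hδL, ← map_pow, ← Units.val_pow_eq_pow_val, he]
        simp
      have e3 := orderOf_dvd_of_pow_eq_one e1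
      rw [hord, hfac] at e3
      have := Nat.dvd_of_mul_dvd_mul_left (by omega : 0 < q + 1) e3
      have := Nat.le_of_dvd hm0 this
      omega
  · exact hZdvd
  · intro W hW
    have hns : ¬ ∃ c : k, Z.1 = c • 1 := by
      rintro ⟨c, hc⟩
      have := hZdvd 1 c (by rw [pow_one]; exact hc)
      have := Nat.le_of_dvd (by norm_num) this
      omega
    obtain ⟨α, β, e⟩ := commutant_two Z.1 W.1 hns (by
      have := congrArg Units.val hW
      simpa using this)
    have e1 : W.1 = M (algebraMap k L α + β • (ζ : L)) := by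
      rw [e, map_add, hscal, map_smul]
      rfl
    have hx : algebraMap k L α + β • (ζ : L) ≠ 0 := by
      intro h0
      rw [h0, map_zero] at e1
      have := W.det_ne_zero
      have h3 : W.1 = 0 := e1
      have h4 : (W * W⁻¹).1 = 1 := by simp
      rw [Units.val_mul, h3, zero_mul] at h4
      exact zero_ne_one h4
    obtain ⟨i, hi⟩ := hζ (Units.mk0 _ hx)
    have hi' : ∃ n : ℕ, ζ ^ n = Units.mk0 _ hx := by
      refine ⟨(i % orderOf ζ).toNat, ?_⟩
      have hpos : 0 < orderOf ζ := orderOf_pos ζ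
      have h2 : (0 : ℤ) ≤ i % (orderOf ζ : ℤ) := Int.emod_nonneg _ (by exact_mod_cast hpos.ne')
      rw [← zpow_natCast, Int.toNat_of_nonneg h2, zpow_mod_orderOf]
      exact hi
    obtain ⟨n, hn⟩ := hi'
    refine ⟨n, Units.ext ?_⟩
    rw [hZval, e1]
    congr 1
    have := congrArg Units.val hn
    simpa using this.symm

end Cfsg.Agent.Lib.TorD4.Singer
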