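import Cfsg.Agent.Lib.TorD4.Core2
import Cfsg.Agent.Lib.TorD4.Gen

/-!
The self-centralizing cyclic subgroups of `³D₄(q)`.
-/

set_option autoImplicit false
set_option linter.unusedSectionVars false
set_option linter.unusedVariables false
set_option linter.ambiguousOpen false

namespace Cfsg.Agent.Lib.TorD4.Two

open scoped MatrixGroups Matrix
open Cfsg Lie ChevalleyDatum
open Cfsg.Agent.Lib.Chev
open Tables Tables2 Tables3 Raise Basic AxBasic Torus Products Products2 Mono1 Mono2 Mono3 Bn Order1 Diag SL2 SL2Chev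
open Cfsg.Agent.Lib.Twisted.Bruhat Cfsg.Agent.Lib.Twisted.D4H Cfsg.Agent.Lib.Twisted.TorusFix
open Cfsg.Agent.Lib.TorD4.Root Cfsg.Agent.Lib.TorD4.Psi Cfsg.Agent.Lib.TorD4.Final
open Cfsg.Agent.Lib.TorD4.Fixed Cfsg.Agent.Lib.TorD4.Core3 Cfsg.Agent.Lib.TorD4.Core2

section Explicit

variable {K : Type*} [Field K] (h2K : (2 : K) = 0)

include h2K in
lemma neg_one_eq : (-1 : K) = 1 := by linear_combination -h2K

/-- The element of order `3` of `GL₂(2)`. -/
noncomputable def Z3 (K : Type*) [Field K] : GL (Fin 2) K :=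
  Matrix.GeneralLinearGroup.mkOfDetNeZero !![1, 1; 1, 0] (by
    rw [Matrix.det_fin_two]
    simp)

lemma Z3_val : (Z3 K).1 = !![1, 1; 1, 0] := rfl

include h2K in
lemma Z3_det : Matrix.GeneralLinearGroup.det (Z3 K) = 1 := by
  apply Units.ext
  show Matrix.det (Z3 K).1 = 1
  rw [Z3_val, Matrix.det_fin_two]
  simp [neg_one_eq h2K]

include h2K in
lemma Z3_sq : ((Z3 K) ^ 2).1 = !![0, 1; 1, 1] := by
  rw [pow_two, Units.val_mul, Z3_val]
  ext i j
  fin_cases i <;> fin_cases j <;> simp [Matrix.mul_apply, Fin.sum_univ_two]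
  linear_combination h2K

include h2K in
lemma Z3_cube : (Z3 K) ^ 3 = 1 := by
  apply Units.ext
  rw [pow_succ, Units.val_mul, Z3_sq h2K, Z3_val]
  ext i j
  fin_cases i <;> fin_cases j <;> simp [Matrix.mul_apply, Fin.sum_univ_two]
  linear_combination h2K

include h2K in
lemma Z3_scalar (m : ℕ) (c : K) (hm : ((Z3 K) ^ m).1 = c • (1 : Matrix (Fin 2) (Fin 2) K)) : 3 ∣ m := by
  have e : (Z3 K) ^ m = (Z3 K) ^ (m % 3) := by
    conv_lhs => rw [← Nat.div_add_mod m 3, pow_add, pow_mul, Z3_cube h2K, one_pow, one_mul]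
  rw [e] at hm
  have hlt : m % 3 < 3 := Nat.mod_lt _ (by norm_num)
  have h01 := congrFun (congrFun hm 0) 1
  simp only [Matrix.smul_apply, Matrix.one_apply_ne (by decide : (0 : Fin 2) ≠ 1), smul_zero] at h01
  have hc : m % 3 = 0 := by
    by_contra hne
    have h12 : m % 3 = 1 ∨ m % 3 = 2 := by omega
    rcases h12 with h1 | h1
    · rw [h1, pow_one, Z3_val] at h01
      simp at h01
    · rw [h1, Z3_sq h2K] at h01
      simp at h01
  exact Nat.dvd_of_mod_eq_zero hc

include h2K in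
lemma Z3_comm (W : GL (Fin 2) K) (hW : ∀ i j, W.1 i j ^ 2 = W.1 i j) (hc : W * Z3 K = Z3 K * W) :
    ∃ i : ℕ, W = (Z3 K) ^ i := by
  have hc' : W.1 * (Z3 K).1 = (Z3 K).1 * W.1 := congrArg (fun x : GL (Fin 2) K => (x : Matrix (Fin 2) (Fin 2) K)) hc
  rw [Z3_val] at hc'
  have h01 := congrFun (congrFun hc' 0) 1
  have h11 := congrFun (congrFun hc' 1) 1
  simp [Matrix.mul_apply, Fin.sum_univ_two] at h01 h11
  have h0or : ∀ {x : K}, x ^ 2 = x → x = 0 ∨ x = 1 := by
    intro x hx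
    have : x * (x - 1) = 0 := by linear_combination hx
    rcases mul_eq_zero.mp this with h | h
    · exact Or.inl h
    · exact Or.inr (sub_eq_zero.mp h)
  rcases h0or (hW 0 1) with hy | hy <;> rcases h0or (hW 1 1) with hu | hu
  · exfalso
    have hx : W.1 0 0 = 0 := by rw [h01, hy, hu]; simp
    have hz : W.1 1 0 = 0 := by rw [h11, hy]
    have h0 : W.1 = 0 := by
      ext i j
      fin_cases i <;> fin_cases j <;> simp [hx, hy, hz, hu]
    have h4 : (W * W⁻¹).1 = 1 := by simp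
    rw [Units.val_mul, h0, zero_mul] at h4
    exact zero_ne_one h4
  · refine ⟨0, Units.ext ?_⟩
    have hx : W.1 0 0 = 1 := by rw [h01, hy, hu]; simp
    have hz : W.1 1 0 = 0 := by rw [h11, hy]
    rw [pow_zero]
    ext i j
    fin_cases i <;> fin_cases j <;> simp [hx, hy, hz, hu]
  · refine ⟨1, Units.ext ?_⟩
    have hx : W.1 0 0 = 1 := by rw [h01, hy, hu]; simp
    have hz : W.1 1 0 = 1 := by rw [h11, hy]
    rw [pow_one, Z3_val]
    ext i j
    fin_cases i <;> fin_cases j <;> simp [hx, hy, hz, hu]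
  · refine ⟨2, Units.ext ?_⟩
    have hx : W.1 0 0 = 0 := by rw [h01, hy, hu]; linear_combination h2K
    have hz : W.1 1 0 = 1 := by rw [h11, hy]
    rw [Z3_sq h2K]
    ext i j
    fin_cases i <;> fin_cases j <;> simp [hx, hy, hz, hu]

end Explicit

variable {K : Type*} [Field K] [Fintype K] {q : ℕ}

/-- The case `q = 2`. -/
theorem main_two (hK : Fintype.card K = 2 ^ 3) :
    ∃ H : Subgroup ↥(twistedD4 K 2), IsCyclic ↥H ∧ Nat.card ↥H = (2 ^ 3 - 1) * (2 + 1) ∧
      Subgroup.centralizer (H : Set ↥(twistedD4 K 2)) = H := by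
  classical
  have hq : IsPrimePow 2 := Nat.prime_two.isPrimePow
  obtain ⟨φ, hφ, hφ3⟩ := exists_φ hq hK
  have ax : Ax chevD4 K := Cfsg.Agent.Lib.Lie.AxOf.ax_of_mem hD4mem
  have h8 : (8 : K) = 0 := by
    have := FiniteField.cast_card_eq_zero K
    rw [hK] at this
    exact_mod_cast this
  have h2K : (2 : K) = 0 := by
    have : (2 : K) ^ 3 = 0 := by linear_combination h8
    exact pow_eq_zero_iff (by norm_num) |>.mp this
  have hchar : CharP K 2 := CharTwo.of_one_ne_zero_of_two_eq_zero one_ne_zero h2K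
  have hfact : Fact (Nat.Prime 2) := ⟨Nat.prime_two⟩
  -- the field with the cube roots of unity
  let L := FiniteField.Extension K 2 2
  let ι : K →+* L := algebraMap K L
  have h2L : (2 : L) = 0 := by
    have := congrArg ι h2K
    rwa [map_ofNat, map_zero] at this
  have axL : Ax chevD4 L := Cfsg.Agent.Lib.Lie.AxOf.ax_of_mem hD4mem
  have hL : Nat.card L = Nat.card K ^ 2 := FiniteField.natCard_extension K 2 2
  have hcardL : Nat.card Lˣ = 63 := by
    rw [Nat.card_units, hL, Nat.card_eq_fintype_card, hK]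
    norm_num
  obtain ⟨γ, hγ⟩ := IsCyclic.exists_generator (α := Lˣ)
  have hordγ : orderOf γ = 63 := by rw [orderOf_eq_card_of_forall_mem_zpowers hγ, hcardL]
  set ω := γ ^ 21 with hω'
  have hωo : orderOf ω = 3 := by
    rw [hω', orderOf_pow, hordγ]
    norm_num
  have hω1 : (ω : L) ≠ 1 := by
    intro h
    have : ω = 1 := Units.ext h
    rw [this, orderOf_one] at hωo
    omega
  have hω : (ω : L) ^ 2 + ω + 1 = 0 := by
    have h3 : ω ^ 3 = 1 := by rw [← hωo]; exact pow_orderOf_eq_one ω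
    have h3' : (ω : L) ^ 3 = 1 := by
      have := congrArg Units.val h3
      simpa using this
    have h4 : ((ω : L) - 1) * ((ω : L) ^ 2 + ω + 1) = 0 := by linear_combination h3'
    exact (mul_eq_zero.mp h4).resolve_left (sub_ne_zero.mpr hω1)
  -- the data
  have hcardK : Nat.card Kˣ = 7 := by
    rw [Nat.card_units, Nat.card_eq_fintype_card, hK]
    norm_num
  obtain ⟨g, hg⟩ := IsCyclic.exists_generator (α := Kˣ)
  have hordg : orderOf g = 7 := by rw [orderOf_eq_card_of_forall_mem_zpowers hg, hcardK]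
  have hdet := Z3_det h2K
  have hfix : ∀ i j, φ ((Z3 K).1 i j) = (Z3 K).1 i j := by
    intro i j
    rw [Z3_val]
    fin_cases i <;> fin_cases j <;> simp
  have hg7 : g ^ (2 ^ 2 + 2 + 1) = Matrix.GeneralLinearGroup.det (Z3 K) := by
    rw [hdet]
    have h7 := pow_orderOf_eq_one g
    rw [hordg] at h7
    exact h7
  have hw₀ : orderOf (g ^ 2)⁻¹ = 7 := by
    rw [orderOf_inv, orderOf_pow, hordg]
    norm_num
  refine main_of_core (ax := ax) (φ := φ) hφ hφ3 (by norm_num) le_rfl (Z3 K) g hfix (by rw [hordg]; norm_num)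
    (by rw [hcardK]; norm_num) ?_ hg7 (fun m c hm => Z3_scalar h2K m c hm) ?_ ?_
  · rw [hdet, show 2 + 1 = 3 by norm_num, Z3_cube h2K]
    simp
  · intro W hW hc
    exact Z3_comm h2K W (fun i j => by rw [← hφ, hW]) hc
  · intro y hy hc
    have hn : (nSL (Z3 K)).1 = !![1, 1; 1, 0] := by
      have hd : ((Matrix.GeneralLinearGroup.det (Z3 K) : Kˣ) : K) = 1 := by rw [hdet]; rfl
      show (!![(Z3 K).1 0 0 / ((Matrix.GeneralLinearGroup.det (Z3 K) : Kˣ) : K), (Z3 K).1 0 1;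
        (Z3 K).1 1 0 / ((Matrix.GeneralLinearGroup.det (Z3 K) : Kˣ) : K), (Z3 K).1 1 1] : Matrix _ _ _) = _
      rw [hd, Z3_val]
      ext i j
      fin_cases i <;> fin_cases j <;> simp
    rw [Ψ_apply, hdet] at hc
    exact core2 ι ax axL φ hφ hφ3 ω hω h2L hn hw₀ hωo hy hc

/-- The case `q ≥ 3`. -/
theorem main_three (hq : IsPrimePow q) (hK : Fintype.card K = q ^ 3) (hq3 : 3 ≤ q) :
    ∃ H : Subgroup ↥(twistedD4 K q), IsCyclic ↥H ∧ Nat.card ↥H = (q ^ 3 - 1) * (q + 1) ∧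
      Subgroup.centralizer (H : Set ↥(twistedD4 K q)) = H := by
  classical
  obtain ⟨φ, hφ, hφ3⟩ := exists_φ hq hK
  have ax : Ax chevD4 K := Cfsg.Agent.Lib.Lie.AxOf.ax_of_mem hD4mem
  have hq1 : 1 ≤ q := by omega
  obtain ⟨Z₀, g, hfix, hord, hpow, hnorm, hsc, hcomm⟩ := Gen.exists_data hq hK φ hφ
  have hcard : Nat.card Kˣ = q ^ 3 - 1 := by
    rw [Nat.card_units, Nat.card_eq_fintype_card, hK]
  refine main_of_core (ax := ax) (φ := φ) hφ hφ3 hq1 (by omega) Z₀ g hfix hord hcard hpow hnorm hsc hcomm ?_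
  intro y hy hc
  have hc1 : Commute y (Ψ ax φ (Z₀, (g ^ q)⁻¹)) := hc
  have hc2 := hc1.pow_right (q + 1)
  rw [t_pow ax φ hφ hφ3 hq1 Z₀ g hfix hpow hnorm] at hc2
  exact core3 ax φ hφ hφ3 hq1 hord hq3 hy hc2.symm

end Cfsg.Agent.Lib.TorD4.Two
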